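import Mathlib
import Cfsg.Prelude.Def_Involutions
import Cfsg.Agent.Lib.Helper8.IsoInv
import Cfsg.Agent.Lib.Helper8.Conj

set_option autoImplicit false

namespace Cfsg.Agent.Lib.Helper8.CIT

open Cfsg.Agent.Lib.Helper8.IsoInv Cfsg.Agent.Lib.Helper8.Conj

variable {G : Type*} [Group G] [Finite G]

theorem exists_central_invol (T : Sylow 2 G) (hnc : ¬ IsCyclic (T : Subgroup G)) :
    ∃ t ∈ (T : Subgroup G), orderOf t = 2 ∧ ∀ x ∈ (T : Subgroup G), x * t = t * x := by
  have : Fact (Nat.Prime 2) := ⟨Nat.prime_two⟩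
  have hnt : Nontrivial (T : Subgroup G) := by
    by_contra h
    rw [not_nontrivial_iff_subsingleton] at h
    exact hnc inferInstance
  have hcn : Nontrivial (Subgroup.center (T : Subgroup G)) := T.2.center_nontrivial
  have hp : IsPGroup 2 (Subgroup.center (T : Subgroup G)) := T.2.to_subgroup _
  have hdvd : 2 ∣ Nat.card (Subgroup.center (T : Subgroup G)) := by
    rcases hp.card_eq_or_dvd with h | h
    · exfalso
      have := Finite.one_lt_card (α := Subgroup.center (T : Subgroup G))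
      omega
    · exact h
  obtain ⟨z, hz⟩ := exists_prime_orderOf_dvd_card' (G := Subgroup.center (T : Subgroup G)) 2 hdvd
  refine ⟨((z : (T : Subgroup G)) : G), (z : (T : Subgroup G)).2, ?_, ?_⟩
  · rw [Subgroup.orderOf_coe, Subgroup.orderOf_coe]; exact hz
  · intro x hx
    have := Subgroup.mem_center_iff.mp z.2 ⟨x, hx⟩
    exact congrArg Subtype.val this

theorem isPGroup_centralizer
    (hC : ∀ t : G, orderOf t = 2 → IsMulCommutative (Subgroup.centralizer ({t} : Set G)) ∧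
      ∀ c ∈ Subgroup.centralizer ({t} : Set G), c ^ 2 = 1) {t : G} (ht : orderOf t = 2) :
    IsPGroup 2 (Subgroup.centralizer ({t} : Set G)) := by
  rintro ⟨c, hc⟩
  refine ⟨1, ?_⟩
  apply Subtype.ext
  show c ^ 2 ^ 1 = 1
  rw [pow_one]
  exact (hC t ht).2 c hc

theorem exists_eq_centralizer (T : Sylow 2 G) (hnc : ¬ IsCyclic (T : Subgroup G))
    (hC : ∀ t : G, orderOf t = 2 → IsMulCommutative (Subgroup.centralizer ({t} : Set G)) ∧
      ∀ c ∈ Subgroup.centralizer ({t} : Set G), c ^ 2 = 1) :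
    ∃ t : G, orderOf t = 2 ∧ Subgroup.centralizer ({t} : Set G) = T := by
  obtain ⟨t, _, ht2, htc⟩ := exists_central_invol T hnc
  refine ⟨t, ht2, ?_⟩
  apply T.is_maximal' (isPGroup_centralizer hC ht2)
  intro x hx
  rw [Subgroup.mem_centralizer_singleton_iff]
  exact htc x hx

theorem T_comm (T : Sylow 2 G) (hnc : ¬ IsCyclic (T : Subgroup G))
    (hC : ∀ t : G, orderOf t = 2 → IsMulCommutative (Subgroup.centralizer ({t} : Set G)) ∧
      ∀ c ∈ Subgroup.centralizer ({t} : Set G), c ^ 2 = 1) {x y : G}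
    (hx : x ∈ (T : Subgroup G)) (hy : y ∈ (T : Subgroup G)) : x * y = y * x := by
  obtain ⟨t, ht2, htT⟩ := exists_eq_centralizer T hnc hC
  rw [← htT] at hx hy
  have := (hC t ht2).1
  exact setLike_mul_comm (s := Subgroup.centralizer ({t} : Set G)) hx hy

theorem T_sq (T : Sylow 2 G) (hnc : ¬ IsCyclic (T : Subgroup G))
    (hC : ∀ t : G, orderOf t = 2 → IsMulCommutative (Subgroup.centralizer ({t} : Set G)) ∧
      ∀ c ∈ Subgroup.centralizer ({t} : Set G), c ^ 2 = 1) {x : G}
    (hx : x ∈ (T : Subgroup G)) : x * x = 1 := by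
  obtain ⟨t, ht2, htT⟩ := exists_eq_centralizer T hnc hC
  rw [← htT] at hx
  rw [← pow_two]
  exact (hC t ht2).2 x hx

theorem T_orderOf (T : Sylow 2 G) (hnc : ¬ IsCyclic (T : Subgroup G))
    (hC : ∀ t : G, orderOf t = 2 → IsMulCommutative (Subgroup.centralizer ({t} : Set G)) ∧
      ∀ c ∈ Subgroup.centralizer ({t} : Set G), c ^ 2 = 1) {x : G}
    (hx : x ∈ (T : Subgroup G)) (hx1 : x ≠ 1) : orderOf x = 2 :=
  orderOf_two_of (T_sq T hnc hC hx) hx1

theorem centralizer_eq_T (T : Sylow 2 G) (hnc : ¬ IsCyclic (T : Subgroup G))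
    (hC : ∀ t : G, orderOf t = 2 → IsMulCommutative (Subgroup.centralizer ({t} : Set G)) ∧
      ∀ c ∈ Subgroup.centralizer ({t} : Set G), c ^ 2 = 1) {x : G}
    (hx : x ∈ (T : Subgroup G)) (hx1 : x ≠ 1) : Subgroup.centralizer ({x} : Set G) = T := by
  apply T.is_maximal' (isPGroup_centralizer hC (T_orderOf T hnc hC hx hx1))
  intro y hy
  rw [Subgroup.mem_centralizer_singleton_iff]
  exact T_comm T hnc hC hy hx

theorem mem_normalizer_of_conj_mem (T : Sylow 2 G) (hnc : ¬ IsCyclic (T : Subgroup G))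
    (hC : ∀ t : G, orderOf t = 2 → IsMulCommutative (Subgroup.centralizer ({t} : Set G)) ∧
      ∀ c ∈ Subgroup.centralizer ({t} : Set G), c ^ 2 = 1) {i g : G}
    (hi : i ∈ (T : Subgroup G)) (hi1 : i ≠ 1) (hig : g⁻¹ * i * g ∈ (T : Subgroup G)) :
    g ∈ Subgroup.normalizer ((T : Subgroup G) : Set G) := by
  rw [mem_normalizer_iff_map_conj]
  apply map_conj_eq_self_of_forall
  intro x hx
  rw [← centralizer_eq_T T hnc hC hi hi1, Subgroup.mem_centralizer_singleton_iff]
  have h1 := T_comm T hnc hC hx hig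
  calc g * x * g⁻¹ * i = g * (x * (g⁻¹ * i * g)) * g⁻¹ := by group
    _ = g * ((g⁻¹ * i * g) * x) * g⁻¹ := by rw [h1]
    _ = i * (g * x * g⁻¹) := by group

theorem invol_mem_T_of_mem_normalizer (T : Sylow 2 G) {i : G} (hi2 : i * i = 1)
    (hi : i ∈ Subgroup.normalizer ((T : Subgroup G) : Set G)) : i ∈ (T : Subgroup G) := by
  have hZ : IsPGroup 2 (Subgroup.zpowers i) := by
    rintro ⟨x, hx⟩
    obtain ⟨j, rfl⟩ := Subgroup.mem_zpowers_iff.mp hx
    refine ⟨1, ?_⟩
    apply Subtype.ext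
    show (i ^ j) ^ 2 ^ 1 = 1
    rw [pow_one, ← zpow_natCast, ← zpow_mul, mul_comm, zpow_mul, zpow_natCast, pow_two, hi2, one_zpow]
  have hle : Subgroup.zpowers i ≤ Subgroup.normalizer ((T : Subgroup G) : Set G) := by
    rw [Subgroup.zpowers_le]; exact hi
  have hsup : IsPGroup 2 (Subgroup.zpowers i ⊔ (T : Subgroup G) : Subgroup G) :=
    IsPGroup.to_sup_of_normal_right' hZ T.2 hle
  have := T.is_maximal' hsup le_sup_right
  rw [← this]
  exact Subgroup.mem_sup_left (Subgroup.mem_zpowers i)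

theorem T_ne_bot (T : Sylow 2 G) (hnc : ¬ IsCyclic (T : Subgroup G)) : (T : Subgroup G) ≠ ⊥ := by
  intro h
  apply hnc
  have : Subsingleton (T : Subgroup G) := by
    rw [h]; infer_instance
  infer_instance

theorem stronglyEmbedded (T : Sylow 2 G) (hnc : ¬ IsCyclic (T : Subgroup G))
    (hnn : ¬ (T : Subgroup G).Normal)
    (hC : ∀ t : G, orderOf t = 2 → IsMulCommutative (Subgroup.centralizer ({t} : Set G)) ∧
      ∀ c ∈ Subgroup.centralizer ({t} : Set G), c ^ 2 = 1) :
    Cfsg.IsStronglyEmbedded (Subgroup.normalizer ((T : Subgroup G) : Set G)) := by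
  have : Fact (Nat.Prime 2) := ⟨Nat.prime_two⟩
  refine ⟨?_, ?_, ?_⟩
  · intro h
    exact hnn (Subgroup.normalizer_eq_top_iff.mp h)
  · obtain ⟨t, ht, ht2, _⟩ := exists_central_invol T hnc
    have h1 : orderOf (⟨t, Subgroup.le_normalizer ht⟩ :
        Subgroup.normalizer ((T : Subgroup G) : Set G)) = 2 := by
      rw [← Subgroup.orderOf_coe]; exact ht2
    have h2 := orderOf_dvd_natCard (⟨t, Subgroup.le_normalizer ht⟩ :
        Subgroup.normalizer ((T : Subgroup G) : Set G))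
    rw [h1] at h2
    exact even_iff_two_dvd.mpr h2
  · intro g hg
    by_contra hodd
    rw [Nat.not_odd_iff_even] at hodd
    obtain ⟨i, hi⟩ := exists_prime_orderOf_dvd_card' (G := ↥(Subgroup.normalizer ((T : Subgroup G) : Set G) ⊓
      (Subgroup.normalizer ((T : Subgroup G) : Set G)).map (MulAut.conj g).toMonoidHom)) 2
      (even_iff_two_dvd.mp hodd)
    have hi2 : orderOf (i : G) = 2 := by rw [Subgroup.orderOf_coe]; exact hi
    have hii : (i : G) * (i : G) = 1 := mul_self_of_orderOf_two hi2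
    have hi1 : (i : G) ≠ 1 := ne_one_of_orderOf_two hi2
    have hiT : (i : G) ∈ (T : Subgroup G) := invol_mem_T_of_mem_normalizer T hii i.2.1
    have hi' : g⁻¹ * (i : G) * g ∈ Subgroup.normalizer ((T : Subgroup G) : Set G) :=
      mem_map_conj.mp i.2.2
    have hi'T : g⁻¹ * (i : G) * g ∈ (T : Subgroup G) := by
      apply invol_mem_T_of_mem_normalizer T _ hi'
      calc g⁻¹ * (i : G) * g * (g⁻¹ * (i : G) * g) = g⁻¹ * ((i : G) * (i : G)) * g := by group
        _ = 1 := by rw [hii]; group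
    exact hg (mem_normalizer_of_conj_mem T hnc hC hiT hi1 hi'T)

end Cfsg.Agent.Lib.Helper8.CIT
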