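import Mathlib
import Cfsg.Prelude.Def_Involutions
import Cfsg.Agent.Lib.Helper8.IsoInv
import Cfsg.Agent.Lib.Helper8.Conj
import Cfsg.Agent.Lib.Helper8.Dih

set_option autoImplicit false

namespace Cfsg.Agent.Lib.Helper8.SE

open Cfsg.Agent.Lib.Helper8.IsoInv Cfsg.Agent.Lib.Helper8.Conj Cfsg.Agent.Lib.Helper8.Dih

variable {G : Type*} [Group G]

theorem pow_conj_aux (a x : G) (ha : a * x * a⁻¹ = x⁻¹) (j : ℕ) :
    (a ^ j) * x * (a ^ j)⁻¹ = x ∨ (a ^ j) * x * (a ^ j)⁻¹ = x⁻¹ := by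
  induction j with
  | zero => left; simp
  | succ j ih =>
    have e : a ^ (j + 1) * x * (a ^ (j + 1))⁻¹ = a * (a ^ j * x * (a ^ j)⁻¹) * a⁻¹ := by
      rw [pow_succ']; group
    rcases ih with h | h
    · right; rw [e, h, ha]
    · left
      rw [e, h]
      have : a * x⁻¹ * a⁻¹ = (a * x * a⁻¹)⁻¹ := by group
      rw [this, ha, inv_inv]

theorem inv_lemma {p q c : G} (hp : p * p = 1) (hq : q * q = 1) (hodd : Odd (orderOf (p * q)))
    (hpc : p * c * p⁻¹ = c) (hqc : q * c * q⁻¹ = c⁻¹) : c = c⁻¹ := by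
  obtain ⟨m, hm⟩ := hodd
  have hconj := pow_conj_of_odd hp hq hm
  have hpqc : (p * q) * c * (p * q)⁻¹ = c⁻¹ := by
    calc (p * q) * c * (p * q)⁻¹ = p * (q * c * q⁻¹) * p⁻¹ := by group
      _ = p * c⁻¹ * p⁻¹ := by rw [hqc]
      _ = (p * c * p⁻¹)⁻¹ := by group
      _ = c⁻¹ := by rw [hpc]
  have hyc := pow_conj_aux (p * q) c hpqc m
  generalize (p * q) ^ m = y at *
  have hpc2 : p * c⁻¹ * p⁻¹ = c⁻¹ := by
    have : p * c⁻¹ * p⁻¹ = (p * c * p⁻¹)⁻¹ := by group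
    rw [this, hpc]
  have e : q * c * q⁻¹ = y * (p * (y⁻¹ * c * y) * p⁻¹) * y⁻¹ := by
    rw [← hconj]; group
  have hqc2 : q * c * q⁻¹ = c := by
    rw [e]
    rcases hyc with h1 | h1
    · have h2 : y⁻¹ * c * y = c := by
        calc y⁻¹ * c * y = y⁻¹ * (y * c * y⁻¹) * y := by rw [h1]
          _ = c := by group
      rw [h2, hpc, h1]
    · have h3 : y * c⁻¹ * y⁻¹ = c := by
        have : y * c⁻¹ * y⁻¹ = (y * c * y⁻¹)⁻¹ := by group
        rw [this, h1, inv_inv]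
      have h2 : y⁻¹ * c * y = c⁻¹ := by
        calc y⁻¹ * c * y = y⁻¹ * (y * c⁻¹ * y⁻¹) * y := by rw [h3]
          _ = c⁻¹ := by group
      rw [h2, hpc2, h3]
  exact hqc2.symm.trans hqc

theorem orderOf_conj_eq (g a : G) : orderOf (g * a * g⁻¹) = orderOf a :=
  orderOf_injective (MulAut.conj g).toMonoidHom (MulAut.conj g).injective a

variable [Finite G] {H : Subgroup G}

theorem mem_of_invol (hH : Cfsg.IsStronglyEmbedded H) {i g : G} (hi : orderOf i = 2) (h1 : i ∈ H)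
    (h2 : g⁻¹ * i * g ∈ H) : g ∈ H := by
  by_contra hg
  have hodd := hH.2.2 g hg
  have hmem : i ∈ H ⊓ H.map (MulAut.conj g).toMonoidHom := ⟨h1, mem_map_conj.mpr h2⟩
  have h3 : orderOf (⟨i, hmem⟩ : ↥(H ⊓ H.map (MulAut.conj g).toMonoidHom)) = 2 := by
    rw [← Subgroup.orderOf_coe]; exact hi
  have h4 := orderOf_dvd_natCard (⟨i, hmem⟩ : ↥(H ⊓ H.map (MulAut.conj g).toMonoidHom))
  rw [h3] at h4
  exact (Nat.not_even_iff_odd.mpr hodd) (even_iff_two_dvd.mpr h4)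

theorem fix_unique (hH : Cfsg.IsStronglyEmbedded H) {i g₁ g₂ : G} (hi : orderOf i = 2)
    (h1 : g₁⁻¹ * i * g₁ ∈ H) (h2 : g₂⁻¹ * i * g₂ ∈ H) : g₁⁻¹ * g₂ ∈ H := by
  have hi' : orderOf (g₁⁻¹ * i * g₁) = 2 := by
    have := orderOf_conj_eq g₁⁻¹ i
    rw [inv_inv] at this
    rw [this]; exact hi
  apply mem_of_invol hH hi' h1
  have e : (g₁⁻¹ * g₂)⁻¹ * (g₁⁻¹ * i * g₁) * (g₁⁻¹ * g₂) = g₂⁻¹ * i * g₂ := by group
  rw [e]; exact h2

theorem centralizer_le (hH : Cfsg.IsStronglyEmbedded H) {i c : G} (hi : orderOf i = 2) (h1 : i ∈ H)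
    (hc : c * i = i * c) : c ∈ H := by
  apply mem_of_invol hH hi h1
  have : c⁻¹ * i * c = i := by
    calc c⁻¹ * i * c = c⁻¹ * (i * c) := by group
      _ = c⁻¹ * (c * i) := by rw [hc]
      _ = i := by group
  rw [this]; exact h1

theorem odd_mul_of_mem (hH : Cfsg.IsStronglyEmbedded H) {z u : G} (hz : orderOf z = 2)
    (hu : orderOf u = 2) (hzH : z ∈ H) (huH : u ∉ H) : Odd (orderOf (z * u)) := by
  have hzz := mul_self_of_orderOf_two hz
  have huu := mul_self_of_orderOf_two hu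
  by_contra hodd
  rw [Nat.not_odd_iff_even] at hodd
  obtain ⟨k, hk⟩ := hodd
  obtain ⟨hw1, hw2, hzw, huw⟩ := central_invol_of_even hzz huu hk
  generalize (z * u) ^ k = w at *
  have hwH : w ∈ H := centralizer_le hH hz hzH hzw.symm
  have hw : orderOf w = 2 := orderOf_two_of hw2 hw1
  exact huH (centralizer_le hH hw hwH huw)

theorem odd_mul (hH : Cfsg.IsStronglyEmbedded H) {i i' g : G} (hi : orderOf i = 2)
    (hi' : orderOf i' = 2) (h1 : g⁻¹ * i * g ∈ H) (h2 : g⁻¹ * i' * g ∉ H) :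
    Odd (orderOf (i * i')) := by
  have e1 : orderOf (g⁻¹ * i * g) = 2 := by
    have := orderOf_conj_eq g⁻¹ i
    rw [inv_inv] at this
    rw [this]; exact hi
  have e2 : orderOf (g⁻¹ * i' * g) = 2 := by
    have := orderOf_conj_eq g⁻¹ i'
    rw [inv_inv] at this
    rw [this]; exact hi'
  have h3 := odd_mul_of_mem hH e1 e2 h1 h2
  have e3 : g⁻¹ * i * g * (g⁻¹ * i' * g) = g⁻¹ * (i * i') * g⁻¹⁻¹ := by group
  rw [e3, orderOf_conj_eq] at h3
  exact h3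

theorem exists_invol_mem (hH : Cfsg.IsStronglyEmbedded H) : ∃ z ∈ H, orderOf z = 2 := by
  have : Fact (Nat.Prime 2) := ⟨Nat.prime_two⟩
  obtain ⟨z, hz⟩ := exists_prime_orderOf_dvd_card' (G := H) 2 (even_iff_two_dvd.mp hH.2.1)
  exact ⟨z, z.2, by rw [Subgroup.orderOf_coe]; exact hz⟩

theorem exists_invol_not_mem (hH : Cfsg.IsStronglyEmbedded H) : ∃ u : G, u ∉ H ∧ orderOf u = 2 := by
  obtain ⟨z, hzH, hz⟩ := exists_invol_mem hH
  have : ∃ g : G, g ∉ H := by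
    by_contra h
    push Not at h
    exact hH.1 (Subgroup.eq_top_iff' H |>.mpr h)
  obtain ⟨g, hg⟩ := this
  refine ⟨g * z * g⁻¹, ?_, by rw [orderOf_conj_eq]; exact hz⟩
  intro h
  apply hg
  have h2 : g⁻¹⁻¹ * z * g⁻¹ ∈ H := by rw [inv_inv]; exact h
  have := mem_of_invol hH hz hzH h2
  simpa using H.inv_mem this

theorem exists_swap (hH : Cfsg.IsStronglyEmbedded H) {z₁ z' g₁ g₂ : G} (hz₁ : orderOf z₁ = 2)
    (hz' : orderOf z' = 2) (h1 : g₁⁻¹ * z₁ * g₁ ∈ H) (h2 : g₂⁻¹ * z' * g₂ ∈ H)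
    (hne : g₁⁻¹ * g₂ ∉ H) :
    ∃ w : G, orderOf w = 2 ∧ g₂⁻¹ * w * g₁ ∈ H ∧ w * z₁ * w⁻¹ = z' := by
  have hzz := mul_self_of_orderOf_two hz₁
  have hzz' := mul_self_of_orderOf_two hz'
  have hzi : z₁⁻¹ = z₁ := inv_eq_self_of_mul_self hzz
  have h3 : g₁⁻¹ * z' * g₁ ∉ H := by
    intro h
    have := fix_unique hH hz' h h2
    exact hne this
  obtain ⟨m, hm⟩ := odd_mul hH hz₁ hz' h1 h3
  have hconj := pow_conj_of_odd hzz hzz' hm
  have hinv := conj_pow_inverted hzz (left_inverts hzz hzz') m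
  generalize (z₁ * z') ^ m = k at *
  have hww : (k * z₁) * (k * z₁) = 1 := by
    calc (k * z₁) * (k * z₁) = k * (z₁ * k * z₁) := by group
      _ = 1 := by rw [hinv]; group
  have hwz : (k * z₁) * z₁ * (k * z₁)⁻¹ = z' := by
    rw [← hconj]; group
  have hw1 : k * z₁ ≠ 1 := by
    intro h
    rw [h] at hwz
    apply h3
    rw [← hwz]
    simpa using h1
  have hw : orderOf (k * z₁) = 2 := orderOf_two_of hww hw1
  refine ⟨k * z₁, hw, ?_, hwz⟩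
  have hwi : (k * z₁)⁻¹ = k * z₁ := inv_eq_self_of_mul_self hww
  have h4 : ((k * z₁) * g₁)⁻¹ * z' * ((k * z₁) * g₁) ∈ H := by
    rw [← hwz]
    have e : ((k * z₁) * g₁)⁻¹ * ((k * z₁) * z₁ * (k * z₁)⁻¹) * ((k * z₁) * g₁) = g₁⁻¹ * z₁ * g₁ := by
      group
    rw [e]; exact h1
  have h5 := fix_unique hH hz' h2 h4
  have e : g₂⁻¹ * (k * z₁ * g₁) = g₂⁻¹ * (k * z₁) * g₁ := by group
  rw [e] at h5
  exact h5

theorem swap_unique (hH : Cfsg.IsStronglyEmbedded H) {z₁ w w' g₁ g₂ : G} (hz₁ : orderOf z₁ = 2)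
    (hw : orderOf w = 2) (hw' : orderOf w' = 2) (h1 : g₁⁻¹ * z₁ * g₁ ∈ H)
    (h2 : g₂⁻¹ * w * g₁ ∈ H) (h2' : g₂⁻¹ * w' * g₁ ∈ H) (hne : g₁⁻¹ * g₂ ∉ H)
    (heq : w * z₁ * w⁻¹ = w' * z₁ * w'⁻¹) : w = w' := by
  have hzz := mul_self_of_orderOf_two hz₁
  have hww := mul_self_of_orderOf_two hw
  have hww' := mul_self_of_orderOf_two hw'
  have hwi : w⁻¹ = w := inv_eq_self_of_mul_self hww
  have hwi' : w'⁻¹ = w' := inv_eq_self_of_mul_self hww'
  have h3 : g₁⁻¹ * w' * g₁ ∉ H := by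
    intro h
    apply hne
    have : g₁⁻¹ * g₂ = (g₁⁻¹ * w' * g₁) * (g₂⁻¹ * w' * g₁)⁻¹ := by group
    rw [this]
    exact H.mul_mem h (H.inv_mem h2')
  have hodd := odd_mul hH hz₁ hw' h1 h3
  have hpc : z₁ * (w' * w) * z₁⁻¹ = w' * w := by
    have e1 : w'⁻¹ * (w * z₁ * w⁻¹) * w' = z₁ := by rw [heq]; group
    rw [hwi, hwi'] at e1
    have e2 : z₁ * (w' * w) = (w' * w) * z₁ := by
      calc z₁ * (w' * w) = (w' * (w * z₁ * w) * w') * (w' * w) := by rw [e1]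
        _ = w' * w * z₁ * (w * (w' * w') * w) := by group
        _ = w' * w * z₁ := by rw [hww', mul_one, hww, mul_one]
    rw [e2]; group
  have hqc : w' * (w' * w) * w'⁻¹ = (w' * w)⁻¹ := by
    rw [mul_inv_rev, hwi, hwi']
    calc w' * (w' * w) * w' = (w' * w') * w * w' := by group
      _ = w * w' := by rw [hww', one_mul]
  have hcc := inv_lemma hzz hww' hodd hpc hqc
  have hc2 : (w' * w) * (w' * w) = 1 := by
    nth_rewrite 2 [hcc]
    exact mul_inv_cancel _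
  by_cases hc1 : w' * w = 1
  · calc w = w'⁻¹ * (w' * w) := by group
      _ = w' := by rw [hc1, mul_one, hwi']
  · exfalso
    have hc : orderOf (w' * w) = 2 := orderOf_two_of hc2 hc1
    have f1 : g₁⁻¹ * (w' * w) * g₁ ∈ H := by
      have : g₁⁻¹ * (w' * w) * g₁ = (g₂⁻¹ * w' * g₁)⁻¹ * (g₂⁻¹ * w * g₁) := by
        rw [mul_inv_rev, mul_inv_rev, hwi']; group
      rw [this]
      exact H.mul_mem (H.inv_mem h2') h2
    have f2 : g₂⁻¹ * (w' * w) * g₂ ∈ H := by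
      have : g₂⁻¹ * (w' * w) * g₂ = (g₂⁻¹ * w' * g₁) * (g₂⁻¹ * w * g₁)⁻¹ := by
        rw [mul_inv_rev, mul_inv_rev, hwi]; group
      rw [this]
      exact H.mul_mem h2' (H.inv_mem h2)
    exact hne (fix_unique hH hc f1 f2)

end Cfsg.Agent.Lib.Helper8.SE
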