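import Mathlib
import Cfsg.Prelude.Def_Involutions
import Cfsg.Agent.Lib.Helper8.IsoInv
import Cfsg.Agent.Lib.Helper8.Conj
import Cfsg.Agent.Lib.Helper8.SE
import Cfsg.Agent.Lib.Helper8.CIT
import Cfsg.Agent.S1225

set_option autoImplicit false

namespace Cfsg.Agent.Lib.Helper8.CIT2

open Cfsg.Agent.Lib.Helper8.IsoInv Cfsg.Agent.Lib.Helper8.Conj Cfsg.Agent.Lib.Helper8.SE
  Cfsg.Agent.Lib.Helper8.CIT

theorem inverts_of_fpf {G : Type*} [Group G] (D : Subgroup G) [Finite D] {u : G} (hu : u * u = 1)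
    (hnorm : ∀ d ∈ D, u * d * u⁻¹ ∈ D) (hfix : ∀ d ∈ D, u * d = d * u → d = 1) :
    ∀ d ∈ D, u * d * u⁻¹ = d⁻¹ := by
  have hui : u⁻¹ = u := inv_eq_self_of_mul_self hu
  let φ : D → D := fun d => ⟨d.1⁻¹ * (u * d.1 * u⁻¹), D.mul_mem (D.inv_mem d.2) (hnorm d.1 d.2)⟩
  have hinj : Function.Injective φ := by
    intro a b hab
    have h1 : a.1⁻¹ * (u * a.1 * u⁻¹) = b.1⁻¹ * (u * b.1 * u⁻¹) := congrArg Subtype.val hab
    have h2 : u * (b.1 * a.1⁻¹) = (b.1 * a.1⁻¹) * u := by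
      have h3 : b.1 * a.1⁻¹ * (u * a.1 * u⁻¹) = u * b.1 * u⁻¹ := by
        rw [mul_assoc b.1, h1]; group
      calc u * (b.1 * a.1⁻¹) = (u * b.1 * u⁻¹) * (u * a.1⁻¹) := by group
        _ = b.1 * a.1⁻¹ * (u * a.1 * u⁻¹) * (u * a.1⁻¹) := by rw [h3]
        _ = b.1 * a.1⁻¹ * u := by group
    have h3 := hfix _ (D.mul_mem b.2 (D.inv_mem a.2)) h2
    apply Subtype.ext
    have h4 : b.1 = a.1 := by rwa [mul_inv_eq_one] at h3
    exact h4.symm
  have hsurj : Function.Surjective φ := Finite.injective_iff_surjective.mp hinj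
  intro d hd
  obtain ⟨e, he⟩ := hsurj ⟨d, hd⟩
  have h1 : e.1⁻¹ * (u * e.1 * u⁻¹) = d := congrArg Subtype.val he
  rw [← h1, hui]
  have e1 : (e.1⁻¹ * (u * e.1 * u))⁻¹ = u⁻¹ * e.1⁻¹ * u⁻¹ * e.1 := by group
  have e2 : u * (e.1⁻¹ * (u * e.1 * u)) * u = u * e.1⁻¹ * u * e.1 * (u * u) := by group
  rw [e1, e2, hu, hui, mul_one]

section Setup

variable {G : Type*} [Group G] [Finite G]

/-- the normalizer of `T` -/
abbrev NT (T : Sylow 2 G) : Subgroup G := Subgroup.normalizer ((T : Subgroup G) : Set G)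

/-- `H ∩ uHu⁻¹` -/
abbrev DD (T : Sylow 2 G) (u : G) : Subgroup G :=
  NT T ⊓ (NT T).map (MulAut.conj u).toMonoidHom

variable (T : Sylow 2 G) (hnc : ¬ IsCyclic (T : Subgroup G)) (hnn : ¬ (T : Subgroup G).Normal)
  (hC : ∀ t : G, orderOf t = 2 → IsMulCommutative (Subgroup.centralizer ({t} : Set G)) ∧
    ∀ c ∈ Subgroup.centralizer ({t} : Set G), c ^ 2 = 1)

theorem T_le_NT : (T : Subgroup G) ≤ NT T := Subgroup.le_normalizer

theorem conj_mem_T {h t : G} (hh : h ∈ NT T) (ht : t ∈ (T : Subgroup G)) :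
    h * t * h⁻¹ ∈ (T : Subgroup G) :=
  (Subgroup.mem_normalizer_iff.mp hh t).mp ht

theorem mem_DD_iff {u d : G} : d ∈ DD T u ↔ d ∈ NT T ∧ u⁻¹ * d * u ∈ NT T := by
  rw [Subgroup.mem_inf, mem_map_conj]

theorem DD_le (u : G) : DD T u ≤ NT T := inf_le_left

theorem u_norm_DD {u : G} (hu : u * u = 1) {d : G} (hd : d ∈ DD T u) :
    u * d * u⁻¹ ∈ DD T u := by
  have hui : u⁻¹ = u := inv_eq_self_of_mul_self hu
  rw [mem_DD_iff] at hd ⊢
  refine ⟨?_, ?_⟩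
  · have := hd.2
    rw [hui] at this ⊢
    exact this
  · have e : u⁻¹ * (u * d * u⁻¹) * u = d := by group
    rw [e]; exact hd.1

theorem exists_ne_one (hnc : ¬ IsCyclic (T : Subgroup G)) : ∃ t ∈ (T : Subgroup G), t ≠ 1 := by
  have h := T_ne_bot T hnc
  rw [Subgroup.ne_bot_iff_exists_ne_one] at h
  obtain ⟨a, ha⟩ := h
  exact ⟨a.1, a.2, fun h1 => ha (Subtype.ext h1)⟩

theorem exists_two (hnc : ¬ IsCyclic (T : Subgroup G)) :
    ∃ s ∈ (T : Subgroup G), ∃ t ∈ (T : Subgroup G), s ≠ 1 ∧ t ≠ 1 ∧ s ≠ t := by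
  obtain ⟨s, hs, hs1⟩ := exists_ne_one T hnc
  by_contra hcon
  push Not at hcon
  apply hnc
  refine ⟨⟨⟨s, hs⟩, fun x => ?_⟩⟩
  by_cases hx : x.1 = 1
  · have : x = 1 := Subtype.ext hx
    rw [this]; exact ⟨0, zpow_zero _⟩
  · have h1 := hcon s hs x.1 x.2 hs1 hx
    have : x = ⟨s, hs⟩ := Subtype.ext h1.symm
    rw [this]; exact ⟨1, zpow_one _⟩

include hnc hnn hC

theorem DD_odd {u : G} (huH : u ∉ NT T) : Odd (Nat.card (DD T u)) :=
  (stronglyEmbedded T hnc hnn hC).2.2 u huH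

theorem eq_one_of_sq_of_mem_DD {u d : G} (huH : u ∉ NT T) (hd : d ∈ DD T u) (hd2 : d * d = 1) :
    d = 1 := by
  have h1 : orderOf d ∣ Nat.card (DD T u) := Subgroup.orderOf_dvd_natCard _ hd
  have h2 : orderOf d ∣ 2 := orderOf_dvd_of_pow_eq_one (n := 2) (by rw [sq]; exact hd2)
  have h3 : Odd (orderOf d) := (DD_odd T hnc hnn hC huH).of_dvd_nat h1
  rcases (Nat.dvd_prime Nat.prime_two).mp h2 with h | h
  · exact orderOf_eq_one_iff.mp h
  · rw [h] at h3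
    exact absurd h3 (by decide)

theorem DD_inf_T {u d : G} (huH : u ∉ NT T) (hd : d ∈ DD T u) (hdT : d ∈ (T : Subgroup G)) :
    d = 1 :=
  eq_one_of_sq_of_mem_DD T hnc hnn hC huH hd (T_sq T hnc hC hdT)

theorem DD_inverted {u : G} (hu : orderOf u = 2) (huH : u ∉ NT T) :
    ∀ d ∈ DD T u, u * d * u⁻¹ = d⁻¹ := by
  apply inverts_of_fpf (DD T u) (mul_self_of_orderOf_two hu)
    (fun d hd => u_norm_DD T (mul_self_of_orderOf_two hu) hd)
  intro d hd hcomm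
  have h1 : d ∈ Subgroup.centralizer ({u} : Set G) := by
    rw [Subgroup.mem_centralizer_iff]
    intro y hy
    rw [Set.mem_singleton_iff] at hy
    subst hy
    exact hcomm
  have h2 := (hC u hu).2 d h1
  exact eq_one_of_sq_of_mem_DD T hnc hnn hC huH hd (by rw [← sq]; exact h2)

theorem DD_comm {u : G} (hu : orderOf u = 2) (huH : u ∉ NT T) {a b : G} (ha : a ∈ DD T u)
    (hb : b ∈ DD T u) : a * b = b * a := by
  have h1 := DD_inverted T hnc hnn hC hu huH a ha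
  have h2 := DD_inverted T hnc hnn hC hu huH b hb
  have h3 := DD_inverted T hnc hnn hC hu huH (a * b) (Subgroup.mul_mem _ ha hb)
  have h4 : u * (a * b) * u⁻¹ = (u * a * u⁻¹) * (u * b * u⁻¹) := by group
  rw [h1, h2] at h4
  rw [h4] at h3
  have h5 := congrArg (fun x => x⁻¹) h3
  simp only [mul_inv_rev, inv_inv] at h5
  exact h5.symm

theorem DD_trans {u : G} (hu : orderOf u = 2) (huH : u ∉ NT T) {s t : G}
    (hs : s ∈ (T : Subgroup G)) (hs1 : s ≠ 1) (ht : t ∈ (T : Subgroup G)) (ht1 : t ≠ 1) :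
    ∃ d ∈ DD T u, d * s * d⁻¹ = t :=
  (Cfsg.Agent.S1225.result (NT T) (stronglyEmbedded T hnc hnn hC) u hu huH s t
    (T_orderOf T hnc hC hs hs1) (T_le_NT T hs) (T_orderOf T hnc hC ht ht1) (T_le_NT T ht)).1

theorem NT_eq_DT {u : G} (hu : orderOf u = 2) (huH : u ∉ NT T) {h : G} (hh : h ∈ NT T) :
    ∃ d ∈ DD T u, ∃ τ ∈ (T : Subgroup G), h = d * τ := by
  obtain ⟨t₀, ht₀, ht₀1⟩ := exists_ne_one T hnc
  have h1 : h * t₀ * h⁻¹ ∈ (T : Subgroup G) := conj_mem_T T hh ht₀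
  have h2 : h * t₀ * h⁻¹ ≠ 1 := by
    intro e
    exact ht₀1 (conj_eq_one_iff.mp e)
  obtain ⟨d, hd, hdt⟩ := DD_trans T hnc hnn hC hu huH ht₀ ht₀1 h1 h2
  refine ⟨d, hd, d⁻¹ * h, ?_, by group⟩
  rw [← centralizer_eq_T T hnc hC ht₀ ht₀1, Subgroup.mem_centralizer_iff]
  intro y hy
  rw [Set.mem_singleton_iff] at hy
  subst hy
  calc y * (d⁻¹ * h) = d⁻¹ * (d * y * d⁻¹) * h := by group
    _ = d⁻¹ * (h * y * h⁻¹) * h := by rw [hdt]
    _ = d⁻¹ * h * y := by group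

theorem NT_eq_TD {u : G} (hu : orderOf u = 2) (huH : u ∉ NT T) {h : G} (hh : h ∈ NT T) :
    ∃ τ ∈ (T : Subgroup G), ∃ d ∈ DD T u, h = τ * d := by
  obtain ⟨d, hd, τ, hτ, e⟩ := NT_eq_DT T hnc hnn hC hu huH (Subgroup.inv_mem _ hh)
  refine ⟨τ⁻¹, Subgroup.inv_mem _ hτ, d⁻¹, Subgroup.inv_mem _ hd, ?_⟩
  rw [← mul_inv_rev, ← e, inv_inv]

theorem DD_ne_bot {u : G} (hu : orderOf u = 2) (huH : u ∉ NT T) : ∃ d ∈ DD T u, d ≠ 1 := by
  obtain ⟨s, hs, t, ht, hs1, ht1, hst⟩ := exists_two T hnc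
  obtain ⟨d, hd, hdt⟩ := DD_trans T hnc hnn hC hu huH hs hs1 ht ht1
  refine ⟨d, hd, ?_⟩
  rintro rfl
  apply hst
  simpa using hdt

theorem cent_T {u : G} (huH : u ∉ NT T) {τ d : G} (hτ : τ ∈ (T : Subgroup G)) (hτ1 : τ ≠ 1)
    (hd : d ∈ DD T u) (hcomm : d * τ = τ * d) : d = 1 := by
  apply DD_inf_T T hnc hnn hC huH hd
  rw [← centralizer_eq_T T hnc hC hτ hτ1, Subgroup.mem_centralizer_iff]
  intro y hy
  rw [Set.mem_singleton_iff] at hy
  subst hy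
  exact hcomm.symm

theorem card_DD {u : G} (hu : orderOf u = 2) (huH : u ∉ NT T) :
    Nat.card (DD T u) = Nat.card (T : Subgroup G) - 1 := by
  classical
  obtain ⟨t₀, ht₀, ht₀1⟩ := exists_ne_one T hnc
  have : Fintype (T : Subgroup G) := Fintype.ofFinite _
  have h1 : Nat.card {t : (T : Subgroup G) // t ≠ 1} = Nat.card (T : Subgroup G) - 1 := by
    rw [Nat.card_eq_fintype_card, Nat.card_eq_fintype_card, Fintype.card_subtype_compl,
      Fintype.card_subtype_eq]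
  rw [← h1]
  let f : DD T u → {t : (T : Subgroup G) // t ≠ 1} := fun d =>
    ⟨⟨d.1 * t₀ * d.1⁻¹, conj_mem_T T (DD_le T u d.2) ht₀⟩, fun e =>
      ht₀1 (conj_eq_one_iff.mp (congrArg Subtype.val e))⟩
  apply Nat.card_congr (Equiv.ofBijective f ⟨?_, ?_⟩)
  · intro a b hab
    have h2 : a.1 * t₀ * a.1⁻¹ = b.1 * t₀ * b.1⁻¹ :=
      congrArg (fun x : {t : (T : Subgroup G) // t ≠ 1} => ((x : (T : Subgroup G)) : G)) hab
    have h3 : (b.1⁻¹ * a.1) * t₀ = t₀ * (b.1⁻¹ * a.1) := by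
      calc (b.1⁻¹ * a.1) * t₀ = b.1⁻¹ * (a.1 * t₀ * a.1⁻¹) * a.1 := by group
        _ = b.1⁻¹ * (b.1 * t₀ * b.1⁻¹) * a.1 := by rw [h2]
        _ = t₀ * (b.1⁻¹ * a.1) := by group
    have h4 := cent_T T hnc hnn hC huH ht₀ ht₀1
      (Subgroup.mul_mem _ (Subgroup.inv_mem _ b.2) a.2) h3
    apply Subtype.ext
    rw [inv_mul_eq_one] at h4
    exact h4.symm
  · rintro ⟨⟨t, ht⟩, ht1⟩
    have ht1' : t ≠ 1 := fun e => ht1 (Subtype.ext e)
    obtain ⟨d, hd, hdt⟩ := DD_trans T hnc hnn hC hu huH ht₀ ht₀1 ht ht1'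
    exact ⟨⟨d, hd⟩, Subtype.ext (Subtype.ext hdt)⟩

theorem isComplement_DD {u : G} (hu : orderOf u = 2) (huH : u ∉ NT T) :
    Subgroup.IsComplement' ((DD T u).subgroupOf (NT T)) ((T : Subgroup G).subgroupOf (NT T)) := by
  apply Subgroup.isComplement'_of_disjoint_and_mul_eq_univ
  · rw [Subgroup.disjoint_def]
    intro x hx1 hx2
    apply Subtype.ext
    exact DD_inf_T T hnc hnn hC huH (Subgroup.mem_subgroupOf.mp hx1) (Subgroup.mem_subgroupOf.mp hx2)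
  · rw [Set.eq_univ_iff_forall]
    intro h
    obtain ⟨d, hd, τ, hτ, e⟩ := NT_eq_DT T hnc hnn hC hu huH h.2
    refine ⟨⟨d, DD_le T u hd⟩, Subgroup.mem_subgroupOf.mpr hd, ⟨τ, T_le_NT T hτ⟩,
      Subgroup.mem_subgroupOf.mpr hτ, ?_⟩
    apply Subtype.ext
    exact e.symm

theorem card_NT {u : G} (hu : orderOf u = 2) (huH : u ∉ NT T) :
    Nat.card (NT T) = Nat.card (T : Subgroup G) * (Nat.card (T : Subgroup G) - 1) := by
  have h1 := (isComplement_DD T hnc hnn hC hu huH).card_mul_card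
  rw [Nat.card_congr (Subgroup.subgroupOfEquivOfLe (DD_le T u)).toEquiv,
    Nat.card_congr (Subgroup.subgroupOfEquivOfLe (T_le_NT T)).toEquiv,
    card_DD T hnc hnn hC hu huH] at h1
  rw [← h1, mul_comm]

end Setup

end Cfsg.Agent.Lib.Helper8.CIT2
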