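import Mathlib
import Cfsg.Agent.Lib.Helper8.CIT2

set_option autoImplicit false

namespace Cfsg.Agent.Lib.Helper8.CIT3

open Cfsg.Agent.Lib.Helper8.IsoInv Cfsg.Agent.Lib.Helper8.Conj Cfsg.Agent.Lib.Helper8.SE
  Cfsg.Agent.Lib.Helper8.CIT Cfsg.Agent.Lib.Helper8.CIT2

variable {G : Type*} [Group G] [Finite G]
  (T : Sylow 2 G) (hnc : ¬ IsCyclic (T : Subgroup G)) (hnn : ¬ (T : Subgroup G).Normal)
  (hC : ∀ t : G, orderOf t = 2 → IsMulCommutative (Subgroup.centralizer ({t} : Set G)) ∧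
    ∀ c ∈ Subgroup.centralizer ({t} : Set G), c ^ 2 = 1)

include hnc hnn hC

theorem DD_TI {u w : G} (hu : orderOf u = 2) (huH : u ∉ NT T) (hw : orderOf w = 2)
    (hwH : w ∉ NT T) {d : G} (hdu : d ∈ DD T u) (hdw : d ∈ DD T w) (hd1 : d ≠ 1) :
    DD T u ≤ DD T w := by
  intro e he
  obtain ⟨τ, hτ, e', he', rfl⟩ := NT_eq_TD T hnc hnn hC hw hwH (DD_le T u he)
  by_cases hτ1 : τ = 1
  · subst hτ1
    simpa using he'
  · exfalso
    apply hd1
    apply cent_T T hnc hnn hC huH hτ hτ1 hdu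
    have h1 := DD_comm T hnc hnn hC hu huH hdu he
    have h2 := DD_comm T hnc hnn hC hw hwH hdw he'
    calc d * τ = d * (τ * e') * e'⁻¹ := by group
      _ = (τ * e') * d * e'⁻¹ := by rw [h1]
      _ = τ * (e' * d) * e'⁻¹ := by group
      _ = τ * (d * e') * e'⁻¹ := by rw [h2]
      _ = τ * d := by group

theorem exists_invol_coset {g : G} (hg : g ∉ NT T) :
    ∃ w : G, orderOf w = 2 ∧ w ∉ NT T ∧ g⁻¹ * w ∈ NT T := by
  obtain ⟨t₀, ht₀, ht₀1⟩ := exists_ne_one T hnc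
  have hz := T_orderOf T hnc hC ht₀ ht₀1
  have hz' : orderOf (g * t₀ * g⁻¹) = 2 := by rw [orderOf_conj_eq]; exact hz
  obtain ⟨w, hw, hwg, -⟩ := exists_swap (stronglyEmbedded T hnc hnn hC) hz hz' (g₁ := 1) (g₂ := g)
    (by
      show (1 : G)⁻¹ * t₀ * 1 ∈ _
      rw [inv_one, one_mul, mul_one]; exact T_le_NT T ht₀)
    (by
      have : g⁻¹ * (g * t₀ * g⁻¹) * g = t₀ := by group
      rw [this]; exact T_le_NT T ht₀)
    (by
      show (1 : G)⁻¹ * g ∉ _
      rw [inv_one, one_mul]; exact hg)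
  rw [mul_one] at hwg
  refine ⟨w, hw, ?_, hwg⟩
  intro hwH
  apply hg
  have : g = w * (g⁻¹ * w)⁻¹ := by group
  rw [this]
  exact Subgroup.mul_mem _ hwH (Subgroup.inv_mem _ hwg)

theorem cent_inverted {u : G} (hu : orderOf u = 2) (huH : u ∉ NT T) :
    ∀ c ∈ Subgroup.centralizer ((DD T u : Subgroup G) : Set G), u * c * u⁻¹ = c⁻¹ := by
  have huu := mul_self_of_orderOf_two hu
  have hui : u⁻¹ = u := inv_eq_self_of_mul_self huu
  apply inverts_of_fpf _ huu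
  · intro c hc
    rw [Subgroup.mem_centralizer_iff] at hc ⊢
    intro d hd
    have hd' : u⁻¹ * d * u ∈ DD T u := by
      have := u_norm_DD T huu hd
      rw [hui] at this ⊢
      exact this
    have h1 := hc _ hd'
    calc d * (u * c * u⁻¹) = u * ((u⁻¹ * d * u) * c) * u⁻¹ := by group
      _ = u * (c * (u⁻¹ * d * u)) * u⁻¹ := by rw [h1]
      _ = u * c * u⁻¹ * d := by group
  · intro c hc hcomm
    have h1 : c ∈ Subgroup.centralizer ({u} : Set G) := by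
      rw [Subgroup.mem_centralizer_iff]
      intro y hy
      rw [Set.mem_singleton_iff] at hy
      subst hy
      exact hcomm
    have h2 := (hC u hu).2 c h1
    by_contra hc1
    have hc2 : orderOf c = 2 := orderOf_two_of (by rw [← sq]; exact h2) hc1
    obtain ⟨d, hd, hd1⟩ := DD_ne_bot T hnc hnn hC hu huH
    have h3 : d ∈ Subgroup.centralizer ({c} : Set G) := by
      rw [Subgroup.mem_centralizer_iff]
      intro y hy
      rw [Set.mem_singleton_iff] at hy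
      subst hy
      exact (Subgroup.mem_centralizer_iff.mp hc d hd).symm
    have h4 := (hC c hc2).2 d h3
    exact hd1 (eq_one_of_sq_of_mem_DD T hnc hnn hC huH hd (by rw [← sq]; exact h4))

theorem fix_DD_aux {u : G} (hu : orderOf u = 2) (huH : u ∉ NT T) {g : G}
    (hfix : ∀ d ∈ DD T u, g⁻¹ * d * g ∈ NT T) (hg : u⁻¹ * g ∉ NT T) :
    ∃ c ∈ Subgroup.centralizer ((DD T u : Subgroup G) : Set G), c⁻¹ * g ∈ NT T := by
  have huu := mul_self_of_orderOf_two hu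
  have hui : u⁻¹ = u := inv_eq_self_of_mul_self huu
  have hug : u * g ∉ NT T := by rw [hui] at hg; exact hg
  obtain ⟨w, hw, hwH, hwg⟩ := exists_invol_coset T hnc hnn hC hug
  have hle : DD T u ≤ DD T w := by
    intro d hd
    rw [mem_DD_iff]
    refine ⟨DD_le T u hd, ?_⟩
    have hd' : u⁻¹ * d * u ∈ DD T u := by
      have := u_norm_DD T huu hd
      rw [hui] at this ⊢
      exact this
    have h1 := hfix _ hd'
    have e : w⁻¹ * d * w = ((u * g)⁻¹ * w)⁻¹ * (g⁻¹ * (u⁻¹ * d * u) * g) * ((u * g)⁻¹ * w) := by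
      group
    rw [e]
    exact Subgroup.mul_mem _ (Subgroup.mul_mem _ (Subgroup.inv_mem _ hwg) h1) hwg
  refine ⟨u * w, ?_, ?_⟩
  · rw [Subgroup.mem_centralizer_iff]
    intro d hd
    have h1 := DD_inverted T hnc hnn hC hw hwH d (hle hd)
    have h2 := DD_inverted T hnc hnn hC hu huH d⁻¹ (Subgroup.inv_mem _ hd)
    rw [inv_inv] at h2
    calc d * (u * w) = (u * (w * d * w⁻¹) * u⁻¹) * (u * w) := by rw [h1, h2]
      _ = u * w * d := by group
  · have e : (u * w)⁻¹ * g = w⁻¹ * u⁻¹ * g := by group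
    have e2 : w⁻¹ * u * g = ((u * g)⁻¹ * w)⁻¹ := by group
    rw [e, hui, e2]
    exact Subgroup.inv_mem _ hwg

theorem fix_DD {u : G} (hu : orderOf u = 2) (huH : u ∉ NT T) {g : G}
    (hfix : ∀ d ∈ DD T u, g⁻¹ * d * g ∈ NT T) : g ∈ NT T ∨ u⁻¹ * g ∈ NT T := by
  have huu := mul_self_of_orderOf_two hu
  have hui : u⁻¹ = u := inv_eq_self_of_mul_self huu
  by_contra hcon
  push Not at hcon
  obtain ⟨hg1, hg2⟩ := hcon
  obtain ⟨c, hc, hcg⟩ := fix_DD_aux T hnc hnn hC hu huH hfix hg2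
  have hfix' : ∀ d ∈ DD T u, (u * g)⁻¹ * d * (u * g) ∈ NT T := by
    intro d hd
    have hd' : u⁻¹ * d * u ∈ DD T u := by
      have := u_norm_DD T huu hd
      rw [hui] at this ⊢
      exact this
    have h1 := hfix _ hd'
    have e : (u * g)⁻¹ * d * (u * g) = g⁻¹ * (u⁻¹ * d * u) * g := by group
    rw [e]; exact h1
  have hg3 : u⁻¹ * (u * g) ∉ NT T := by
    have e : u⁻¹ * (u * g) = g := by group
    rw [e]; exact hg1
  obtain ⟨c', hc', hcg'⟩ := fix_DD_aux T hnc hnn hC hu huH hfix' hg3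
  obtain ⟨d₀, hd₀, hd₀1⟩ := DD_ne_bot T hnc hnn hC hu huH
  have hCinv := cent_inverted T hnc hnn hC hu huH
  -- the involution
  have hi : c'⁻¹ * u * c ∈ NT T := by
    have e : c'⁻¹ * u * c = (c'⁻¹ * (u * g)) * (c⁻¹ * g)⁻¹ := by group
    rw [e]
    exact Subgroup.mul_mem _ hcg' (Subgroup.inv_mem _ hcg)
  have he : c'⁻¹ * c⁻¹ ∈ Subgroup.centralizer ((DD T u : Subgroup G) : Set G) :=
    Subgroup.mul_mem _ (Subgroup.inv_mem _ hc') (Subgroup.inv_mem _ hc)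
  have hie : c'⁻¹ * u * c = (c'⁻¹ * c⁻¹) * u := by
    have h1 := hCinv c hc
    calc c'⁻¹ * u * c = c'⁻¹ * (u * c * u⁻¹) * u := by group
      _ = (c'⁻¹ * c⁻¹) * u := by rw [h1]
  generalize c'⁻¹ * c⁻¹ = e at he hie
  rw [hie] at hi
  have hii : (e * u) * (e * u) = 1 := by
    have h1 := hCinv e he
    calc (e * u) * (e * u) = e * (u * e * u⁻¹) * (u * u) := by group
      _ = 1 := by rw [h1, huu]; group
  have hiT : e * u ∈ (T : Subgroup G) := invol_mem_T_of_mem_normalizer T hii hi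
  have hed : d₀ * e = e * d₀ := Subgroup.mem_centralizer_iff.mp he d₀ hd₀
  have hinv : (e * u) * d₀ * (e * u)⁻¹ = d₀⁻¹ := by
    have h1 := DD_inverted T hnc hnn hC hu huH d₀ hd₀
    calc (e * u) * d₀ * (e * u)⁻¹ = e * (u * d₀ * u⁻¹) * e⁻¹ := by group
      _ = e * d₀⁻¹ * e⁻¹ := by rw [h1]
      _ = (e * d₀ * e⁻¹)⁻¹ := by group
      _ = (d₀ * e * e⁻¹)⁻¹ := by rw [hed]
      _ = d₀⁻¹ := by group
  have hsq : d₀⁻¹ * d₀⁻¹ ∈ (T : Subgroup G) := by
    have e1 : d₀⁻¹ * d₀⁻¹ = (e * u) * (d₀ * (e * u)⁻¹ * d₀⁻¹) := by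
      calc d₀⁻¹ * d₀⁻¹ = ((e * u) * d₀ * (e * u)⁻¹) * d₀⁻¹ := by rw [hinv]
        _ = (e * u) * (d₀ * (e * u)⁻¹ * d₀⁻¹) := by group
    rw [e1]
    exact Subgroup.mul_mem _ hiT (conj_mem_T T (DD_le T u hd₀) (Subgroup.inv_mem _ hiT))
  have hsq1 : d₀⁻¹ * d₀⁻¹ = 1 :=
    DD_inf_T T hnc hnn hC huH (Subgroup.mul_mem _ (Subgroup.inv_mem _ hd₀) (Subgroup.inv_mem _ hd₀)) hsq
  have := eq_one_of_sq_of_mem_DD T hnc hnn hC huH (Subgroup.inv_mem _ hd₀) hsq1
  exact hd₀1 (inv_eq_one.mp this)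

theorem u_mem_normalizer_DD {u : G} (hu : orderOf u = 2) :
    u ∈ Subgroup.normalizer ((DD T u : Subgroup G) : Set G) := by
  rw [mem_normalizer_iff_map_conj]
  exact map_conj_eq_self_of_forall (fun a ha => u_norm_DD T (mul_self_of_orderOf_two hu) ha)

theorem NT_inf_normalizer_DD {u : G} (hu : orderOf u = 2) (huH : u ∉ NT T) {h : G}
    (hh : h ∈ NT T) (hn : h ∈ Subgroup.normalizer ((DD T u : Subgroup G) : Set G)) :
    h ∈ DD T u := by
  obtain ⟨d, hd, τ, hτ, rfl⟩ := NT_eq_DT T hnc hnn hC hu huH hh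
  have hτn : τ ∈ Subgroup.normalizer ((DD T u : Subgroup G) : Set G) := by
    have e : τ = d⁻¹ * (d * τ) := by group
    rw [e]
    exact Subgroup.mul_mem _ (Subgroup.inv_mem _ (Subgroup.le_normalizer hd)) hn
  obtain ⟨d₀, hd₀, hd₀1⟩ := DD_ne_bot T hnc hnn hC hu huH
  by_cases hτ1 : τ = 1
  · subst hτ1; simpa using hd
  · exfalso
    apply hd₀1
    apply cent_T T hnc hnn hC huH hτ hτ1 hd₀
    have h1 : τ * d₀ * τ⁻¹ ∈ DD T u := (Subgroup.mem_normalizer_iff.mp hτn d₀).mp hd₀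
    have h2 : τ * d₀ * τ⁻¹ * d₀⁻¹ ∈ DD T u := Subgroup.mul_mem _ h1 (Subgroup.inv_mem _ hd₀)
    have h3 : τ * d₀ * τ⁻¹ * d₀⁻¹ ∈ (T : Subgroup G) := by
      have e : τ * d₀ * τ⁻¹ * d₀⁻¹ = τ * (d₀ * τ⁻¹ * d₀⁻¹) := by group
      rw [e]
      exact Subgroup.mul_mem _ hτ (conj_mem_T T (DD_le T u hd₀) (Subgroup.inv_mem _ hτ))
    have h4 := DD_inf_T T hnc hnn hC huH h2 h3
    calc d₀ * τ = (τ * d₀ * τ⁻¹ * d₀⁻¹)⁻¹ * τ * d₀ := by group
      _ = τ * d₀ := by rw [h4]; group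

theorem normalizer_DD {u : G} (hu : orderOf u = 2) (huH : u ∉ NT T) :
    Subgroup.normalizer ((DD T u : Subgroup G) : Set G) = DD T u ⊔ Subgroup.zpowers u := by
  have hun := u_mem_normalizer_DD T hnc hnn hC hu
  apply le_antisymm
  · intro g hg
    have hfix : ∀ d ∈ DD T u, g⁻¹ * d * g ∈ NT T := by
      intro d hd
      have h1 := (Subgroup.mem_normalizer_iff.mp (Subgroup.inv_mem _ hg) d).mp hd
      rw [inv_inv] at h1
      exact DD_le T u h1
    rcases fix_DD T hnc hnn hC hu huH hfix with h | h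
    · exact Subgroup.mem_sup_left (NT_inf_normalizer_DD T hnc hnn hC hu huH h hg)
    · have h1 : u⁻¹ * g ∈ DD T u :=
        NT_inf_normalizer_DD T hnc hnn hC hu huH h
          (Subgroup.mul_mem _ (Subgroup.inv_mem _ hun) hg)
      have e : g = u * (u⁻¹ * g) := by group
      rw [e]
      exact Subgroup.mul_mem _ (Subgroup.mem_sup_right (Subgroup.mem_zpowers u))
        (Subgroup.mem_sup_left h1)
  · apply sup_le Subgroup.le_normalizer
    rw [Subgroup.zpowers_le]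
    exact hun

end Cfsg.Agent.Lib.Helper8.CIT3
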