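import Mathlib
import Cfsg.Agent.Lib.Helper8.CIT3

set_option autoImplicit false

namespace Cfsg.Agent.Lib.Helper8.CITField

open Cfsg.Agent.Lib.Helper8.IsoInv Cfsg.Agent.Lib.Helper8.Conj Cfsg.Agent.Lib.Helper8.SE
  Cfsg.Agent.Lib.Helper8.CIT Cfsg.Agent.Lib.Helper8.CIT2 Cfsg.Agent.Lib.Helper8.CIT3

variable {G : Type*} [Group G] [Finite G]

/-- All the data of the situation, bundled. -/
structure Params (G : Type*) [Group G] [Finite G] where
  T : Sylow 2 G
  u : G
  s : G
  hnc : ¬ IsCyclic (T : Subgroup G)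
  hnn : ¬ (T : Subgroup G).Normal
  hC : ∀ t : G, orderOf t = 2 → IsMulCommutative (Subgroup.centralizer ({t} : Set G)) ∧
    ∀ c ∈ Subgroup.centralizer ({t} : Set G), c ^ 2 = 1
  hu : orderOf u = 2
  huH : u ∉ NT T
  hs : s ∈ (T : Subgroup G)
  hs1 : s ≠ 1

/-- The carrier of the field: the elements of `T`. -/
@[ext] structure KT (P : Params G) where
  val : G
  mem : val ∈ (P.T : Subgroup G)

namespace KT

variable (P : Params G)

def zero : KT P := ⟨1, Subgroup.one_mem _⟩
def one : KT P := ⟨P.s, P.hs⟩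
def add (a b : KT P) : KT P := ⟨a.val * b.val, Subgroup.mul_mem _ a.mem b.mem⟩
def neg (a : KT P) : KT P := ⟨a.val⁻¹, Subgroup.inv_mem _ a.mem⟩

open Classical in
noncomputable def dOf (a : G) : G :=
  if h : ∃ d ∈ DD P.T P.u, d * P.s * d⁻¹ = a then Classical.choose h else 1

theorem dOf_mem (a : G) : dOf P a ∈ DD P.T P.u := by
  unfold dOf
  split_ifs with h
  · exact (Classical.choose_spec h).1
  · exact Subgroup.one_mem _

theorem dOf_conj (a : G) (h : ∃ d ∈ DD P.T P.u, d * P.s * d⁻¹ = a) :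
    dOf P a * P.s * (dOf P a)⁻¹ = a := by
  unfold dOf
  rw [dif_pos h]
  exact (Classical.choose_spec h).2

theorem dOf_eq {d : G} (hd : d ∈ DD P.T P.u) : dOf P (d * P.s * d⁻¹) = d := by
  have h : ∃ e ∈ DD P.T P.u, e * P.s * e⁻¹ = d * P.s * d⁻¹ := ⟨d, hd, rfl⟩
  have h1 := dOf_conj P _ h
  have h2 := dOf_mem P (d * P.s * d⁻¹)
  generalize dOf P (d * P.s * d⁻¹) = e at h1 h2
  have h3 : (d⁻¹ * e) * P.s = P.s * (d⁻¹ * e) := by
    calc (d⁻¹ * e) * P.s = d⁻¹ * (e * P.s * e⁻¹) * e := by group
      _ = d⁻¹ * (d * P.s * d⁻¹) * e := by rw [h1]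
      _ = P.s * (d⁻¹ * e) := by group
  have h4 := cent_T P.T P.hnc P.hnn P.hC P.huH P.hs P.hs1
    (Subgroup.mul_mem _ (Subgroup.inv_mem _ hd) h2) h3
  rw [inv_mul_eq_one] at h4
  exact h4.symm

open Classical in
noncomputable def mul (a b : KT P) : KT P :=
  ⟨if a.val = 1 then 1 else dOf P a.val * b.val * (dOf P a.val)⁻¹, by
    split_ifs
    · exact Subgroup.one_mem _
    · exact conj_mem_T P.T (DD_le P.T P.u (dOf_mem P a.val)) b.mem⟩

theorem exists_d (a : KT P) (ha : a.val ≠ 1) : ∃ d ∈ DD P.T P.u, d * P.s * d⁻¹ = a.val :=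
  DD_trans P.T P.hnc P.hnn P.hC P.hu P.huH P.hs P.hs1 a.mem ha

theorem conj_ne_one (d : G) : d * P.s * d⁻¹ ≠ 1 := fun h => P.hs1 (conj_eq_one_iff.mp h)

theorem mul_val_one {a : KT P} (ha : a.val = 1) (b : KT P) : (mul P a b).val = 1 := by
  unfold mul
  simp only
  rw [if_pos ha]

theorem mul_val_of {a : KT P} {d : G} (hd : d ∈ DD P.T P.u) (ha : a.val = d * P.s * d⁻¹)
    (b : KT P) : (mul P a b).val = d * b.val * d⁻¹ := by
  unfold mul
  simp only
  rw [if_neg (by rw [ha]; exact conj_ne_one P d), ha, dOf_eq P hd]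

theorem add_assoc' (a b c : KT P) : add P (add P a b) c = add P a (add P b c) := by
  apply KT.ext
  exact mul_assoc _ _ _

theorem zero_add' (a : KT P) : add P (zero P) a = a := by
  apply KT.ext
  exact one_mul _

theorem neg_add_cancel' (a : KT P) : add P (neg P a) a = zero P := by
  apply KT.ext
  exact inv_mul_cancel _

theorem mul_assoc' (a b c : KT P) : mul P (mul P a b) c = mul P a (mul P b c) := by
  apply KT.ext
  by_cases ha : a.val = 1
  · rw [mul_val_one P (mul_val_one P ha b) c, mul_val_one P ha]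
  · obtain ⟨d, hd, hda⟩ := exists_d P a ha
    by_cases hb : b.val = 1
    · have h1 : (mul P a b).val = 1 := by rw [mul_val_of P hd hda.symm b, hb]; group
      rw [mul_val_one P h1 c, mul_val_of P hd hda.symm, mul_val_one P hb c]
      group
    · obtain ⟨e, he, heb⟩ := exists_d P b hb
      have h1 : (mul P a b).val = (d * e) * P.s * (d * e)⁻¹ := by
        rw [mul_val_of P hd hda.symm b, ← heb]; group
      rw [mul_val_of P (Subgroup.mul_mem _ hd he) h1 c, mul_val_of P hd hda.symm,
        mul_val_of P he heb.symm c]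
      group

theorem mul_comm' (a b : KT P) : mul P a b = mul P b a := by
  apply KT.ext
  by_cases ha : a.val = 1
  · rw [mul_val_one P ha b]
    by_cases hb : b.val = 1
    · rw [mul_val_one P hb a]
    · obtain ⟨e, he, heb⟩ := exists_d P b hb
      rw [mul_val_of P he heb.symm a, ha]; group
  · obtain ⟨d, hd, hda⟩ := exists_d P a ha
    by_cases hb : b.val = 1
    · rw [mul_val_one P hb a, mul_val_of P hd hda.symm b, hb]; group
    · obtain ⟨e, he, heb⟩ := exists_d P b hb
      rw [mul_val_of P hd hda.symm b, mul_val_of P he heb.symm a, ← hda, ← heb]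
      have hcomm := DD_comm P.T P.hnc P.hnn P.hC P.hu P.huH hd he
      calc d * (e * P.s * e⁻¹) * d⁻¹ = (d * e) * P.s * (d * e)⁻¹ := by group
        _ = (e * d) * P.s * (e * d)⁻¹ := by rw [hcomm]
        _ = e * (d * P.s * d⁻¹) * e⁻¹ := by group

theorem one_mul' (a : KT P) : mul P (one P) a = a := by
  apply KT.ext
  have h1 : (one P).val = 1 * P.s * (1 : G)⁻¹ := by
    show P.s = _
    group
  rw [mul_val_of P (Subgroup.one_mem _) h1 a]
  group

theorem left_distrib' (a b c : KT P) :
    mul P a (add P b c) = add P (mul P a b) (mul P a c) := by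
  apply KT.ext
  by_cases ha : a.val = 1
  · show (mul P a (add P b c)).val = (mul P a b).val * (mul P a c).val
    rw [mul_val_one P ha, mul_val_one P ha, mul_val_one P ha, one_mul]
  · obtain ⟨d, hd, hda⟩ := exists_d P a ha
    show (mul P a (add P b c)).val = (mul P a b).val * (mul P a c).val
    rw [mul_val_of P hd hda.symm, mul_val_of P hd hda.symm, mul_val_of P hd hda.symm]
    show d * (b.val * c.val) * d⁻¹ = _
    group

/-- The ring structure. -/
@[reducible] noncomputable def commRingKT : CommRing (KT P) :=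
  @CommRing.ofMinimalAxioms (KT P) ⟨add P⟩ ⟨mul P⟩ ⟨neg P⟩ ⟨zero P⟩ ⟨one P⟩
    (add_assoc' P) (zero_add' P) (neg_add_cancel' P) (mul_assoc' P) (mul_comm' P) (one_mul' P)
    (left_distrib' P)

theorem isFieldKT : @IsField (KT P) (commRingKT P).toSemiring := by
  letI := commRingKT P
  refine ⟨⟨zero P, one P, ?_⟩, mul_comm' P, ?_⟩
  · intro h
    exact P.hs1 (congrArg KT.val h).symm
  · intro a ha
    have ha1 : a.val ≠ 1 := fun h => ha (KT.ext h)
    obtain ⟨d, hd, hda⟩ := exists_d P a ha1
    refine ⟨⟨d⁻¹ * P.s * d, ?_⟩, ?_⟩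
    · have := conj_mem_T P.T (Subgroup.inv_mem _ (DD_le P.T P.u hd)) P.hs
      rwa [inv_inv] at this
    · apply KT.ext
      show (mul P a _).val = P.s
      rw [mul_val_of P hd hda.symm]
      group

noncomputable instance instField : Field (KT P) :=
  @IsField.toField (KT P) (commRingKT P).toRing (isFieldKT P)

noncomputable instance instDecEq : DecidableEq (KT P) := Classical.decEq _

instance instFinite : Finite (KT P) :=
  Finite.of_injective (fun a : KT P => (⟨a.val, a.mem⟩ : (P.T : Subgroup G)))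
    (fun a b h => KT.ext (congrArg Subtype.val h))

theorem zero_val : (0 : KT P).val = 1 := rfl
theorem one_val : (1 : KT P).val = P.s := rfl
theorem add_val (a b : KT P) : (a + b).val = a.val * b.val := rfl
theorem neg_val (a : KT P) : (-a).val = a.val⁻¹ := rfl

theorem mul_val_of'' {a : KT P} {d : G} (hd : d ∈ DD P.T P.u) (ha : a.val = d * P.s * d⁻¹)
    (b : KT P) : (a * b).val = d * b.val * d⁻¹ :=
  mul_val_of P hd ha b

theorem eq_zero_iff (a : KT P) : a = 0 ↔ a.val = 1 :=
  ⟨fun h => by rw [h]; rfl, fun h => KT.ext h⟩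

theorem add_self (a : KT P) : a + a = 0 := by
  apply KT.ext
  rw [add_val, zero_val]
  exact T_sq P.T P.hnc P.hC a.mem

theorem neg_eq (a : KT P) : -a = a := by
  rw [neg_eq_iff_add_eq_zero, add_self]

theorem exists_sqrt (a : KT P) : ∃ c : KT P, c * c = a := by
  have hinj : Function.Injective (fun c : KT P => c * c) := by
    intro x y hxy
    have hxy' : x * x = y * y := hxy
    have h1 : (x + y) * (x + y) = 0 := by
      have h2 : (x + y) * (x + y) = x * x + y * y + (x * y + x * y) := by ring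
      rw [h2, add_self, add_zero, hxy', add_self]
    have h3 : x + y = 0 := by
      rcases mul_eq_zero.mp h1 with h | h <;> exact h
    have h4 : x = -y := eq_neg_of_add_eq_zero_left h3
    rw [h4, neg_eq]
  exact (Finite.injective_iff_surjective.mp hinj) a

theorem card_eq : Nat.card (KT P) = Nat.card (P.T : Subgroup G) :=
  Nat.card_congr
    { toFun := fun a => ⟨a.val, a.mem⟩
      invFun := fun t => ⟨t.1, t.2⟩
      left_inv := fun _ => rfl
      right_inv := fun _ => rfl }

end KT

end Cfsg.Agent.Lib.Helper8.CITField
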