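import Mathlib
import Cfsg.Agent.Lib.Helper8.MetaOdd

set_option autoImplicit false

namespace Cfsg.Agent.Lib.Helper8.MetaOdd

open scoped commutatorElement

section key

variable {P : Type*} [Group P]

theorem comm_mem (x y : P) : ⁅x, y⁆ ∈ commutator P := by
  rw [commutator_def]
  exact Subgroup.commutator_mem_commutator (Subgroup.mem_top x) (Subgroup.mem_top y)

/-- the commutator pairing composed with a hom `δ` on the commutator subgroup -/
noncomputable def pair {p : ℕ} (δ : ↥(commutator P) →* Multiplicative (ZMod p)) (x y : P) :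
    ZMod p :=
  Multiplicative.toAdd (δ ⟨⁅x, y⁆, comm_mem x y⟩)

theorem pair_add_left {p : ℕ} (hc2 : ∀ x y : P, ⁅x, y⁆ ∈ Subgroup.center P)
    (δ : ↥(commutator P) →* Multiplicative (ZMod p)) (x x' y : P) :
    pair δ (x * x') y = pair δ x y + pair δ x' y := by
  unfold pair
  rw [← toAdd_mul, ← map_mul]
  congr 2
  exact Subtype.ext (comm_mul_left hc2 x x' y)

theorem pair_anti {p : ℕ} (δ : ↥(commutator P) →* Multiplicative (ZMod p)) (x y : P) :
    pair δ y x = - pair δ x y := by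
  unfold pair
  rw [← toAdd_inv, ← map_inv]
  congr 2
  exact Subtype.ext (commutatorElement_inv x y).symm

theorem pair_eq_zero {p : ℕ} (δ : ↥(commutator P) →* Multiplicative (ZMod p)) {x y : P}
    (h : ⁅x, y⁆ = 1) : pair δ x y = 0 := by
  unfold pair
  have : (⟨⁅x, y⁆, comm_mem x y⟩ : ↥(commutator P)) = 1 := Subtype.ext h
  rw [this, map_one]
  rfl

theorem pair_zpow {p : ℕ} (δ : ↥(commutator P) →* Multiplicative (ZMod p)) {x y x' y' : P}
    (k : ℤ) (h : ⁅x', y'⁆ = ⁅x, y⁆ ^ k) : pair δ x' y' = k * pair δ x y := by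
  unfold pair
  have : (⟨⁅x', y'⁆, comm_mem x' y'⟩ : ↥(commutator P)) = ⟨⁅x, y⁆, comm_mem x y⟩ ^ k :=
    Subtype.ext (by simpa using h)
  rw [this, map_zpow, toAdd_zpow, zsmul_eq_mul]

theorem c2_of_gen (hcyc : IsCyclic ↥(commutator P)) (S : Set (MulAut P))
    (hgen : Subgroup.closure {g : P | ∃ φ ∈ S, ∃ x : P, g = x⁻¹ * φ x} = ⊤) :
    ∀ x y : P, ⁅x, y⁆ ∈ Subgroup.center P := by
  obtain ⟨⟨c, hcP⟩, hc⟩ := IsCyclic.exists_generator (α := ↥(commutator P))
  have hpow : ∀ z ∈ commutator P, ∃ k : ℤ, z = c ^ k := by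
    intro z hz
    obtain ⟨k, hk⟩ := Subgroup.mem_zpowers_iff.mp (hc ⟨z, hz⟩)
    exact ⟨k, by simpa using (congrArg Subtype.val hk).symm⟩
  have hchar : ∀ (φ : MulAut P) (z : P), z ∈ commutator P → φ z ∈ commutator P := by
    intro φ z hz
    have h1 := (inferInstance : (commutator P).Characteristic).fixed φ.symm
    rw [← h1, Subgroup.mem_comap]
    simpa using hz
  have hcen : ∀ g : P, g * c = c * g := by
    have hle : Subgroup.closure {g : P | ∃ φ ∈ S, ∃ x : P, g = x⁻¹ * φ x} ≤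
        Subgroup.centralizer ({c} : Set P) := by
      rw [Subgroup.closure_le]
      rintro g ⟨φ, hφ, x, rfl⟩
      rw [SetLike.mem_coe, Subgroup.mem_centralizer_singleton_iff]
      obtain ⟨k₁, hk₁⟩ := hpow (φ.symm c) (hchar φ.symm c hcP)
      obtain ⟨s, hs⟩ := hpow (x * c * x⁻¹)
        ((inferInstance : (commutator P).Normal).conj_mem c hcP x)
      have h1 : x * φ.symm c * x⁻¹ = (φ.symm c) ^ s := by
        rw [hk₁]
        have : x * c ^ k₁ * x⁻¹ = (x * c * x⁻¹) ^ k₁ := by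
          simp
        rw [this, hs, ← zpow_mul, ← zpow_mul, mul_comm]
      have h2 : φ x * c * (φ x)⁻¹ = c ^ s := by
        have := congrArg φ h1
        simpa using this
      have h3 : φ x * c = c ^ s * φ x := by rw [← h2]; group
      have h4 : x⁻¹ * c ^ s = c * x⁻¹ := by rw [← hs]; group
      calc x⁻¹ * φ x * c = x⁻¹ * (φ x * c) := by group
        _ = x⁻¹ * (c ^ s * φ x) := by rw [h3]
        _ = (x⁻¹ * c ^ s) * φ x := by group
        _ = c * x⁻¹ * φ x := by rw [h4]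
        _ = c * (x⁻¹ * φ x) := by group
    intro g
    have hg : g ∈ Subgroup.centralizer ({c} : Set P) :=
      hle (by rw [hgen]; exact Subgroup.mem_top g)
    exact Subgroup.mem_centralizer_singleton_iff.mp hg
  intro x y
  obtain ⟨k, hk⟩ := hpow ⁅x, y⁆ (comm_mem x y)
  rw [hk, Subgroup.mem_center_iff]
  intro g
  have hcom : Commute g c := hcen g
  exact (hcom.zpow_right k).eq

theorem key [Finite P] {p : ℕ} [Fact p.Prime] (hp2 : p ≠ 2) (hP : IsPGroup p P)
    (hmc : Cfsg.IsMetacyclic P) (S : Set (MulAut P))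
    (hgen : Subgroup.closure {g : P | ∃ φ ∈ S, ∃ x : P, g = x⁻¹ * φ x} = ⊤)
    (hna : ¬ ∀ x y : P, x * y = y * x) :
    ∃ N : Subgroup P, N.Normal ∧ (∀ φ ∈ S, ∀ x ∈ N, φ x ∈ N) ∧ commutator P ≤ N ∧
      ∃ κ : P, κ ∉ N ∧ ∀ φ ∈ S, φ κ * κ⁻¹ ∈ N := by
  classical
  have hpp : p.Prime := Fact.out
  obtain ⟨N, hNn, hNc, b, hcov⟩ := Cfsg.Agent.Lib.Helper20.Metacyc.exists_data hmc
  obtain ⟨a, haN, hagen⟩ := Cfsg.Agent.Lib.Helper20.Metacyc.exists_gen N
  have hcov' : ∀ g : P, ∃ l i : ℕ, g = a ^ l * b ^ i := by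
    intro g
    obtain ⟨x, hx, i, rfl⟩ := hcov g
    obtain ⟨l, rfl⟩ := hagen x hx
    exact ⟨l, i, rfl⟩
  have hcomm_le : commutator P ≤ N := by
    rw [commutator_def, Subgroup.commutator_le]
    intro g _ h _
    obtain ⟨x, hx, i, rfl⟩ := hcov g
    obtain ⟨y, hy, j, rfl⟩ := hcov h
    have h1 : (QuotientGroup.mk' N) ⁅x * b ^ i, y * b ^ j⁆ = 1 := by
      rw [map_commutatorElement, map_mul, map_mul,
        show (QuotientGroup.mk' N) x = 1 from (QuotientGroup.eq_one_iff x).mpr hx,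
        show (QuotientGroup.mk' N) y = 1 from (QuotientGroup.eq_one_iff y).mpr hy,
        one_mul, one_mul, map_pow, map_pow, commutatorElement_eq_one_iff_commute]
      exact Commute.pow_pow (Commute.refl _) i j
    exact (QuotientGroup.eq_one_iff _).mp h1
  have hcyc : IsCyclic ↥(commutator P) :=
    isCyclic_of_injective (Subgroup.inclusion hcomm_le) (Subgroup.inclusion_injective hcomm_le)
  have hc2 := c2_of_gen hcyc S hgen
  have hP' : p ∣ Nat.card ↥(commutator P) := by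
    rcases (hP.to_subgroup (commutator P)).card_eq_or_dvd with h | h
    · exfalso
      apply hna
      intro x y
      have hsub : Subsingleton ↥(commutator P) := (Nat.card_eq_one_iff_unique.mp h).1
      have h1 : (⟨⁅x, y⁆, comm_mem x y⟩ : ↥(commutator P)) = 1 := Subsingleton.elim _ _
      have h2 : ⁅x, y⁆ = 1 := congrArg Subtype.val h1
      exact commutatorElement_eq_one_iff_mul_comm.mp h2
    · exact h
  obtain ⟨δ, hδ⟩ := exists_delta hP'
  obtain ⟨β, hβ⟩ : ∃ β : P → P → ZMod p, β = pair δ := ⟨_, rfl⟩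
  obtain ⟨c₀, hc₀⟩ : ∃ c₀ : P, c₀ = ⁅a, b⁆ := ⟨_, rfl⟩
  have hgenc : ∀ x y : P, ∃ k : ℤ, ⁅x, y⁆ = c₀ ^ k := by
    intro x y
    obtain ⟨l, i, rfl⟩ := hcov' x
    obtain ⟨l', i', rfl⟩ := hcov' y
    refine ⟨(l : ℤ) * i' - i * l', ?_⟩
    have e1 : ⁅a, a ^ l' * b ^ i'⁆ = c₀ ^ i' := by
      rw [← commutatorElement_inv, comm_mul_left hc2, comm_pow_left hc2, comm_pow_left hc2,
        commutatorElement_self, one_pow, one_mul, ← inv_pow, commutatorElement_inv, hc₀]
    have e2 : ⁅b, a ^ l' * b ^ i'⁆ = (c₀ ^ l')⁻¹ := by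
      rw [← commutatorElement_inv, comm_mul_left hc2, comm_pow_left hc2, comm_pow_left hc2,
        commutatorElement_self, one_pow, mul_one, hc₀]
    rw [comm_mul_left hc2, comm_pow_left hc2, comm_pow_left hc2, e1, e2]
    rw [sub_eq_add_neg, zpow_add, ← pow_mul, inv_pow, ← pow_mul, zpow_neg]
    congr 1
    · rw [← zpow_natCast]
      congr 1
      push_cast
      ring
    · congr 1
      rw [← zpow_natCast]
      congr 1
      push_cast
      ring
  have hδtriv : (∀ x y : P, β x y = 0) → False := by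
    intro h0
    have hker : ∀ z : ↥(commutator P), δ z = 1 := by
      have hle : commutator P ≤ (δ.ker).map (commutator P).subtype := by
        have h1 : Subgroup.closure (commutatorSet P) ≤ (δ.ker).map (commutator P).subtype := by
          rw [Subgroup.closure_le]
          rintro _ ⟨x, y, rfl⟩
          refine ⟨⟨⁅x, y⁆, comm_mem x y⟩, ?_, rfl⟩
          rw [SetLike.mem_coe, MonoidHom.mem_ker]
          have := h0 x y
          rw [hβ] at this
          exact this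
        exact (commutator_eq_closure P).le.trans h1
      intro z
      obtain ⟨w, hw, hwz⟩ := hle z.2
      have : w = z := Subtype.ext hwz
      rw [← this]
      exact MonoidHom.mem_ker.mp hw
    obtain ⟨z, hz⟩ := hδ (Multiplicative.ofAdd 1)
    rw [hker z] at hz
    have : (0 : ZMod p) = 1 := congrArg Multiplicative.toAdd hz
    exact zero_ne_one this
  have hne : β a b ≠ 0 := by
    intro h0
    apply hδtriv
    intro x y
    obtain ⟨k, hk⟩ := hgenc x y
    rw [hβ, pair_zpow δ k (x := a) (y := b) (by rw [hk, hc₀]), ← hβ, h0, mul_zero]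
  obtain ⟨D, hDβ, hDa, hDb⟩ : ∃ D : Dat P p, D.β = β ∧ D.a = a ∧ D.b = b :=
    ⟨{ β := β
       add_left := by rw [hβ]; exact pair_add_left hc2 δ
       anti := by rw [hβ]; exact pair_anti δ
       self := by rw [hβ]; exact fun x => pair_eq_zero δ (commutatorElement_self x)
       a := a
       b := b
       cov := hcov'
       ne := hne }, rfl, rfl, rfl⟩
  have hadd_l : ∀ x x' y, β (x * x') y = β x y + β x' y := by rw [← hDβ]; exact D.add_left
  have hadd_r : ∀ x y y', β x (y * y') = β x y + β x y' := by rw [← hDβ]; exact D.add_right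
  have hanti : ∀ x y, β y x = - β x y := by rw [← hDβ]; exact D.anti
  have hself : ∀ x, β x x = 0 := by rw [← hDβ]; exact D.self
  have hone_l : ∀ y, β 1 y = 0 := by rw [← hDβ]; exact D.one_left
  have hone_r : ∀ x, β x 1 = 0 := by rw [← hDβ]; exact D.one_right
  have hinv_l : ∀ x y, β x⁻¹ y = - β x y := by rw [← hDβ]; exact D.inv_left
  have hinv_r : ∀ x y, β x y⁻¹ = - β x y := by rw [← hDβ]; exact D.inv_right
  have hpow_l : ∀ x y (n : ℕ), β (x ^ n) y = n * β x y := by rw [← hDβ]; exact D.pow_left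
  have hpow_r : ∀ x y (n : ℕ), β x (y ^ n) = n * β x y := by rw [← hDβ]; exact D.pow_right
  have hla1 : ∀ x y z : P, β x y ≠ 0 → β z x = 0 → β z y = 0 → ∀ w, β z w = 0 := by
    rw [← hDβ]
    exact fun x y z h1 h2 h3 w => D.la1 h1 h2 h3 w
  have hrad : ∀ z : P, (∀ w, β z w = 0) → ∃ l i : ℕ, z = a ^ (p * l) * b ^ (p * i) := by
    rw [← hDβ, ← hDa, ← hDb]
    exact fun z hz => D.rad_pow hz
  obtain ⟨q, hq⟩ : ∃ q, q = orderOf c₀ := ⟨_, rfl⟩
  have hcq : ∀ x y : P, ⁅x, y⁆ ^ q = 1 := by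
    intro x y
    obtain ⟨k, hk⟩ := hgenc x y
    rw [hk, ← zpow_natCast, ← zpow_mul, mul_comm, zpow_mul, zpow_natCast, hq, pow_orderOf_eq_one,
      one_zpow]
  have hqodd : Odd q := by
    obtain ⟨n, hn⟩ := IsPGroup.iff_card.mp hP
    have : q ∣ p ^ n := by
      rw [hq, ← hn]
      exact orderOf_dvd_natCard c₀
    obtain ⟨k, -, hk⟩ := (Nat.dvd_prime_pow hpp).mp this
    rw [hk]
    exact (hpp.odd_of_ne_two hp2).pow
  have hθ : ∀ m : ℕ, q ∣ m → ∀ x y : P, (x * y) ^ m = x ^ m * y ^ m :=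
    fun m hm x y => mul_pow_of_dvd hc2 hqodd hm hcq x y
  have hc₀1 : c₀ ≠ 1 := by
    intro h1
    apply hne
    rw [hβ]
    exact pair_eq_zero δ (by rw [← hc₀]; exact h1)
  have hc₀N : c₀ ∈ N := hcomm_le (by rw [hc₀]; exact comm_mem a b)
  obtain ⟨e, he⟩ := hagen c₀ hc₀N
  have hqe : q ∣ e := by
    rw [hq]
    apply orderOf_dvd_of_pow_eq_one
    have h1 : ⁅a ^ e, b⁆ = c₀ ^ e := by rw [comm_pow_left hc2, hc₀]
    rw [← h1, ← he]
    have h2 : c₀ ∈ Subgroup.center P := by rw [hc₀]; exact hc2 a b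
    rw [commutatorElement_eq_one_iff_mul_comm]
    exact (Subgroup.mem_center_iff.mp h2 b).symm
  have hR0 : ∃ x : P, x ^ (q * p ^ 0) = c₀ := by
    obtain ⟨e', rfl⟩ := hqe
    exact ⟨a ^ e', by rw [pow_zero, mul_one, ← pow_mul, mul_comm, ← he]⟩
  have hRbig : ∃ j : ℕ, ¬ ∃ x : P, x ^ (q * p ^ j) = c₀ := by
    obtain ⟨n, hn⟩ := IsPGroup.iff_card.mp hP
    refine ⟨n, ?_⟩
    rintro ⟨x, hx⟩
    apply hc₀1
    rw [← hx, mul_comm, pow_mul, ← hn, pow_card_eq_one', one_pow]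
  obtain ⟨j₀, hj₀, hj₀min⟩ : ∃ j₀ : ℕ, (¬ ∃ x : P, x ^ (q * p ^ j₀) = c₀) ∧
      ∀ j < j₀, ∃ x : P, x ^ (q * p ^ j) = c₀ := by
    refine ⟨Nat.find hRbig, Nat.find_spec hRbig, fun j hj => ?_⟩
    by_contra hcon
    exact Nat.find_min hRbig hj hcon
  have hj₀pos : j₀ ≠ 0 := by
    intro h0
    rw [h0] at hj₀
    exact hj₀ hR0
  obtain ⟨j₁, hj₁⟩ : ∃ j₁, j₀ = j₁ + 1 := Nat.exists_eq_succ_of_ne_zero hj₀pos
  obtain ⟨m, hm⟩ : ∃ m, m = q * p ^ j₁ := ⟨_, rfl⟩
  obtain ⟨v, hv⟩ := hj₀min j₁ (by omega)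
  rw [← hm] at hv
  have hqm : q ∣ m := by rw [hm]; exact Dvd.intro _ rfl
  have hmp : ∀ x : P, x ^ (m * p) ≠ c₀ := by
    intro x hx
    apply hj₀
    refine ⟨x, ?_⟩
    rw [hj₁, pow_succ, ← mul_assoc, ← hm]
    exact hx
  have hθm := hθ m hqm
  have hθmp := hθ (m * p) (Dvd.dvd.mul_right hqm p)
  have hR3 : ∀ z : P, (∀ w, β z w = 0) → z ^ m ≠ c₀ := by
    intro z hz
    obtain ⟨l, i, rfl⟩ := hrad z hz
    rw [hθm, ← pow_mul, ← pow_mul]
    have : a ^ (p * l * m) * b ^ (p * i * m) = (a ^ l * b ^ i) ^ (m * p) := by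
      rw [hθmp, ← pow_mul, ← pow_mul]
      congr 2 <;> ring
    rw [this]
    exact hmp _
  have hS : ∀ φ ∈ S, ∃ R : ℕ, (R : ZMod p) ≠ 0 ∧ (∀ x y : P, β (φ x) (φ y) = R * β x y) ∧
      (φ v * (v ^ R)⁻¹) ^ m = 1 := by
    intro φ hφ
    have h1 : φ c₀ = ⁅φ a, φ b⁆ := by rw [hc₀, map_commutatorElement]
    obtain ⟨k, hk⟩ := hgenc (φ a) (φ b)
    obtain ⟨R, hR⟩ : ∃ R : ℕ, c₀ ^ k = c₀ ^ R := by
      refine ⟨(k % (orderOf c₀ : ℤ)).toNat, ?_⟩
      have hpos : (orderOf c₀ : ℤ) ≠ 0 := by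
        have := orderOf_pos c₀
        exact_mod_cast this.ne'
      rw [← zpow_natCast, Int.toNat_of_nonneg (Int.emod_nonneg _ hpos), zpow_mod_orderOf]
    have hφc : φ c₀ = c₀ ^ R := by rw [h1, hk, hR]
    have hχ : ∀ x y : P, β (φ x) (φ y) = R * β x y := by
      intro x y
      rw [hβ]
      have := pair_zpow δ (R : ℤ) (x := x) (y := y) (x' := φ x) (y' := φ y) (by
        obtain ⟨k', hk'⟩ := hgenc x y
        rw [← map_commutatorElement, hk', map_zpow, hφc, ← zpow_natCast c₀ R, ← zpow_mul,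
          ← zpow_mul, mul_comm])
      rw [this]
      push_cast
      rfl
    refine ⟨R, ?_, hχ, ?_⟩
    · intro hR0
      apply hne
      have := hχ (φ.symm a) (φ.symm b)
      simp only [MulEquiv.apply_symm_apply] at this
      rw [this, hR0, zero_mul]
    · rw [hθm, inv_pow, ← pow_mul, mul_comm R m, pow_mul, hv, ← map_pow, hv, hφc,
        mul_inv_cancel]
  by_cases hA : ∀ κ : P, κ ^ m = 1 → ∀ w, β κ w = 0
  · exfalso
    have hv1 : ¬ ∀ w, β v w = 0 := fun h => hR3 v h hv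
    push Not at hv1
    obtain ⟨w, hw⟩ := hv1
    let L₁ : Subgroup P :=
      { carrier := {x | β v x = 0}
        mul_mem' := by
          intro x y hx hy
          simp only [Set.mem_ofPred_eq] at *
          rw [hadd_r, hx, hy, add_zero]
        one_mem' := by
          simp only [Set.mem_ofPred_eq]
          exact hone_r v
        inv_mem' := by
          intro x hx
          simp only [Set.mem_ofPred_eq] at *
          rw [hinv_r, hx, neg_zero] }
    have hle : Subgroup.closure {g : P | ∃ φ ∈ S, ∃ x : P, g = x⁻¹ * φ x} ≤ L₁ := by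
      rw [Subgroup.closure_le]
      rintro g ⟨φ, hφ, x, rfl⟩
      obtain ⟨R, hR0, hχ, hy⟩ := hS φ hφ
      show β v (x⁻¹ * φ x) = 0
      rw [hadd_r, hinv_r]
      have h1 := hχ v x
      have h2 : φ v = (φ v * (v ^ R)⁻¹) * v ^ R := by group
      rw [h2, hadd_l, hA _ hy, zero_add, hpow_l] at h1
      have h3 : β v (φ x) = β v x := mul_left_cancel₀ hR0 h1
      rw [h3]
      ring
    have : w ∈ L₁ := hle (by rw [hgen]; exact Subgroup.mem_top w)
    exact hw this
  · push Not at hA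
    obtain ⟨κ, hκm, w₀, hκw⟩ := hA
    have hiso : ∀ κ₁ κ₂ : P, κ₁ ^ m = 1 → κ₂ ^ m = 1 → β κ₁ κ₂ = 0 := by
      intro κ₁ κ₂ h1 h2
      by_contra hne12
      obtain ⟨s, hs⟩ : ∃ s : ℕ, (s : ZMod p) = β v κ₂ / β κ₁ κ₂ :=
        ⟨(β v κ₂ / β κ₁ κ₂).val, ZMod.natCast_zmod_val _⟩
      obtain ⟨t, ht⟩ : ∃ t : ℕ, (t : ZMod p) = - β v κ₁ / β κ₁ κ₂ :=
        ⟨(- β v κ₁ / β κ₁ κ₂).val, ZMod.natCast_zmod_val _⟩
      have hy1 : β (v * (κ₁ ^ s)⁻¹ * (κ₂ ^ t)⁻¹) κ₁ = 0 := by
        rw [hadd_l, hadd_l, hinv_l, hinv_l, hpow_l, hpow_l, hself, hanti κ₁ κ₂, ht]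
        field_simp
        ring
      have hy2 : β (v * (κ₁ ^ s)⁻¹ * (κ₂ ^ t)⁻¹) κ₂ = 0 := by
        rw [hadd_l, hadd_l, hinv_l, hinv_l, hpow_l, hpow_l, hself, hs]
        field_simp
        ring
      have hradz := hla1 κ₁ κ₂ _ hne12 hy1 hy2
      apply hR3 _ hradz
      rw [hθm, hθm, inv_pow, inv_pow, ← pow_mul, ← pow_mul, mul_comm s m, mul_comm t m, pow_mul,
        pow_mul, h1, h2, one_pow, one_pow, inv_one, mul_one, mul_one, hv]
    have hvκ : β v κ ≠ 0 := by
      intro h0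
      obtain ⟨s, hs⟩ : ∃ s : ℕ, (s : ZMod p) = β v w₀ / β κ w₀ :=
        ⟨(β v w₀ / β κ w₀).val, ZMod.natCast_zmod_val _⟩
      have hy1 : β (v * (κ ^ s)⁻¹) κ = 0 := by
        rw [hadd_l, hinv_l, hpow_l, hself, h0]
        ring
      have hy2 : β (v * (κ ^ s)⁻¹) w₀ = 0 := by
        rw [hadd_l, hinv_l, hpow_l, hs]
        field_simp
        ring
      have hradz := hla1 κ w₀ _ hκw hy1 hy2
      apply hR3 _ hradz
      rw [hθm, inv_pow, ← pow_mul, mul_comm s m, pow_mul, hκm, one_pow, inv_one, mul_one, hv]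
    let Rad : Subgroup P :=
      { carrier := {z | ∀ w, β z w = 0}
        mul_mem' := by
          intro x y hx hy w
          rw [hadd_l, hx w, hy w, add_zero]
        one_mem' := fun w => hone_l w
        inv_mem' := by
          intro x hx w
          rw [hinv_l, hx w, neg_zero] }
    refine ⟨Rad, ⟨?_⟩, ?_, ?_, κ, ?_, ?_⟩
    · intro z hz g w
      rw [hadd_l, hadd_l, hinv_l, hz w]
      ring
    · intro φ hφ z hz w
      obtain ⟨R, hR0, hχ, hy⟩ := hS φ hφ
      have := hχ z (φ.symm w)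
      rw [MulEquiv.apply_symm_apply, hz, mul_zero] at this
      exact this
    · rw [commutator_eq_closure, Subgroup.closure_le]
      rintro _ ⟨x, y, rfl⟩ w
      rw [hβ]
      apply pair_eq_zero
      rw [commutatorElement_eq_one_iff_mul_comm]
      exact (Subgroup.mem_center_iff.mp (hc2 x y) w).symm
    · intro hκR
      exact hκw (hκR w₀)
    · intro φ hφ
      obtain ⟨R, hR0, hχ, hy⟩ := hS φ hφ
      have hφκm : (φ κ) ^ m = 1 := by rw [← map_pow, hκm, map_one]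
      have hz1 : β (φ κ * κ⁻¹) κ = 0 := by
        rw [hadd_l, hinv_l, hself, hiso _ _ hφκm hκm]
        ring
      have hz2 : β (φ κ * κ⁻¹) v = 0 := by
        rw [hadd_l, hinv_l]
        have h1 := hχ κ v
        have h2 : φ v = (φ v * (v ^ R)⁻¹) * v ^ R := by group
        rw [h2, hadd_r, hiso _ _ hφκm hy, zero_add, hpow_r] at h1
        have h3 : β (φ κ) v = β κ v := mul_left_cancel₀ hR0 h1
        rw [h3]
        ring
      have hκv : β κ v ≠ 0 := by
        rw [hanti v κ]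
        exact neg_ne_zero.mpr hvκ
      exact hla1 κ v _ hκv hz1 hz2

end key

end Cfsg.Agent.Lib.Helper8.MetaOdd
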