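import Mathlib
import Cfsg.Agent.Lib.Helper8.MetaOdd2
import Cfsg.Agent.Lib.Helper10.Coprime
import Cfsg.Agent.S0022
import Cfsg.Agent.S0016
import Cfsg.Agent.S0638

set_option autoImplicit false

namespace Cfsg.Agent.Lib.Helper8.MetaOdd

open scoped commutatorElement

theorem eq_one_of_pow_pow {M : Type*} [Monoid M] {c : M} {m n : ℕ} (hm : c ^ m = 1)
    (hn : c ^ n = 1) (hc : Nat.Coprime m n) : c = 1 := by
  rw [← orderOf_eq_one_iff]
  exact Nat.eq_one_of_dvd_coprimes hc (orderOf_dvd_of_pow_eq_one hm) (orderOf_dvd_of_pow_eq_one hn)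

section internal

variable {G : Type*} [Group G] [Finite G]

/-- under coprime action with `[K, A] = K`, fixed points lie in the derived subgroup -/
theorem fix_mem_commutator (K A : Subgroup G) (hAK : A ≤ Subgroup.normalizer (K : Set G))
    (hcop : (Nat.card A).Coprime (Nat.card K)) (hKA : ⁅K, A⁆ = K) {c : G} (hc : c ∈ K)
    (hcA : c ∈ Subgroup.centralizer (A : Set G)) : c ∈ ⁅K, K⁆ := by
  classical
  let _ : Fintype A := Fintype.ofFinite A
  have hn : ∀ (a : A) (x : K), (a : G) * x * (a : G)⁻¹ ∈ K := fun a x =>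
    (Subgroup.mem_normalizer_iff.mp (hAK a.2) x).mp x.2
  let f : A → (K →* Abelianization K) := fun a =>
    (Abelianization.of).comp
      { toFun := fun x => ⟨(a : G) * x * (a : G)⁻¹, hn a x⟩
        map_one' := by ext; simp
        map_mul' := fun x y => by ext; simp [mul_assoc] }
  have hf : ∀ (a : A) (x : K), f a x = Abelianization.of ⟨(a : G) * x * (a : G)⁻¹, hn a x⟩ :=
    fun _ _ => rfl
  let ν : K →* Abelianization K := ∏ a : A, f a
  have hν : ∀ x : K, ν x = ∏ a : A, f a x := fun x => MonoidHom.finsetProd_apply _ _ _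
  have hinv : ∀ (b : A) (x : K), ν ⟨(b : G) * x * (b : G)⁻¹, hn b x⟩ = ν x := by
    intro b x
    rw [hν, hν, ← Equiv.prod_comp (Equiv.mulRight b) (fun a => f a x)]
    apply Finset.prod_congr rfl
    intro a _
    rw [hf, hf]
    congr 1
    apply Subtype.ext
    simp [mul_assoc]
  have hker : ∀ x : K, ν x = 1 := by
    have hle : ⁅K, A⁆ ≤ (ν.ker).map K.subtype := by
      rw [Subgroup.commutator_le]
      intro k hk a ha
      refine ⟨⟨k, hk⟩ * (⟨a * k * a⁻¹, hn ⟨a, ha⟩ ⟨k, hk⟩⟩ : K)⁻¹, ?_, ?_⟩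
      · rw [SetLike.mem_coe, MonoidHom.mem_ker, map_mul, map_inv]
        have := hinv ⟨a, ha⟩ ⟨k, hk⟩
        rw [this, mul_inv_cancel]
      · simp [commutatorElement_def, mul_assoc]
    intro x
    obtain ⟨w, hw, hwx⟩ := hle (by rw [hKA]; exact x.2)
    have : w = x := Subtype.ext hwx
    rw [← this]
    exact MonoidHom.mem_ker.mp hw
  have hcent : ∀ a : A, (a : G) * c * (a : G)⁻¹ = c := by
    intro a
    have := Subgroup.mem_centralizer_iff.mp hcA a a.2
    rw [this, mul_inv_cancel_right]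
  have h1 : (Abelianization.of (⟨c, hc⟩ : K)) ^ (Nat.card A) = 1 := by
    rw [← hker ⟨c, hc⟩, hν]
    have : ∀ a : A, f a ⟨c, hc⟩ = Abelianization.of (⟨c, hc⟩ : K) := by
      intro a
      rw [hf]
      congr 1
      exact Subtype.ext (hcent a)
    rw [Finset.prod_congr rfl (fun a _ => this a), Finset.prod_const, Finset.card_univ,
      Nat.card_eq_fintype_card]
  have h2 : (Abelianization.of (⟨c, hc⟩ : K)) ^ (Nat.card K) = 1 := by
    rw [← map_pow, pow_card_eq_one', map_one]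
  have h3 : Abelianization.of (⟨c, hc⟩ : K) = 1 := eq_one_of_pow_pow h1 h2 hcop
  have h4 : (⟨c, hc⟩ : K) ∈ commutator K := by
    rw [← Abelianization.ker_of, MonoidHom.mem_ker]
    exact h3
  rw [← Subgroup.map_subtype_commutator]
  exact ⟨⟨c, hc⟩, h4, rfl⟩

/-- **Key lemma**: a metacyclic `p`-group (`p` odd) equal to its commutator with a coprime
operator group is commutative. -/
theorem comm_of_full {p : ℕ} [Fact p.Prime] (hp2 : p ≠ 2) (K A : Subgroup G) (hK : IsPGroup p K)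
    (hKm : Cfsg.IsMetacyclic K) (hAK : A ≤ Subgroup.normalizer (K : Set G))
    (hcop : (Nat.card A).Coprime (Nat.card K)) (hKA : ⁅K, A⁆ = K) :
    ∀ x ∈ K, ∀ y ∈ K, x * y = y * x := by
  by_contra hcon
  push Not at hcon
  obtain ⟨x₀, hx₀, y₀, hy₀, hxy⟩ := hcon
  have hn : ∀ a ∈ A, ∀ x ∈ K, a * x * a⁻¹ ∈ K := fun a ha x hx =>
    (Subgroup.mem_normalizer_iff.mp (hAK ha) x).mp hx
  let φ : A → MulAut K := fun a =>
    { toFun := fun x => ⟨(a : G) * x * (a : G)⁻¹, hn a a.2 x x.2⟩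
      invFun := fun x => ⟨(a : G)⁻¹ * x * (a : G), by
        have := hn (a⁻¹ : A) (a⁻¹).2 x x.2
        simpa using this⟩
      left_inv := fun x => by ext; simp [mul_assoc]
      right_inv := fun x => by ext; simp [mul_assoc]
      map_mul' := fun x y => by ext; simp [mul_assoc] }
  have hφ : ∀ (a : A) (x : K), ((φ a x : K) : G) = (a : G) * x * (a : G)⁻¹ := fun _ _ => rfl
  let S : Set (MulAut K) := Set.range φ
  have hgen : Subgroup.closure {g : K | ∃ ψ ∈ S, ∃ x : K, g = x⁻¹ * ψ x} = ⊤ := by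
    rw [eq_top_iff]
    have hle : ⁅K, A⁆ ≤
        (Subgroup.closure {g : K | ∃ ψ ∈ S, ∃ x : K, g = x⁻¹ * ψ x}).map K.subtype := by
      rw [Subgroup.commutator_le]
      intro k hk a ha
      refine ⟨⟨k, hk⟩ * (φ ⟨a, ha⟩ ⟨k, hk⟩)⁻¹, ?_, ?_⟩
      · apply Subgroup.subset_closure
        refine ⟨φ ⟨a, ha⟩, ⟨⟨a, ha⟩, rfl⟩, (⟨k, hk⟩ : K)⁻¹, ?_⟩
        rw [inv_inv, map_inv]
      · simp [hφ, commutatorElement_def, mul_assoc]
    intro x _
    obtain ⟨w, hw, hwx⟩ := hle (by rw [hKA]; exact x.2)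
    have : w = x := Subtype.ext hwx
    rw [← this]
    exact hw
  have hna : ¬ ∀ x y : K, x * y = y * x := by
    intro h
    apply hxy
    have := h ⟨x₀, hx₀⟩ ⟨y₀, hy₀⟩
    exact congrArg Subtype.val this
  obtain ⟨N, hNn, hNS, hNc, κ, hκN, hκ⟩ := key hp2 hK hKm S hgen hna
  have hN'K : N.map K.subtype ≤ K := by
    rintro _ ⟨x, -, rfl⟩
    exact x.2
  have hmemN' : ∀ x : K, (x : G) ∈ N.map K.subtype ↔ x ∈ N := by
    intro x
    constructor
    · rintro ⟨y, hy, hyx⟩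
      have : y = x := Subtype.ext hyx
      rwa [← this]
    · intro hx
      exact ⟨x, hx, rfl⟩
  have hKN' : K ≤ Subgroup.normalizer ((N.map K.subtype : Subgroup G) : Set G) := by
    intro k hk
    rw [Subgroup.mem_normalizer_iff]
    intro h
    constructor
    · rintro ⟨x, hx, rfl⟩
      have := hNn.conj_mem x hx ⟨k, hk⟩
      exact ⟨_, this, by simp⟩
    · rintro ⟨y, hy, hyx⟩
      have := hNn.conj_mem y hy (⟨k, hk⟩ : K)⁻¹
      refine ⟨_, this, ?_⟩
      have hy' : (y : G) = k * h * k⁻¹ := hyx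
      simp [hy', mul_assoc]
  have hAN' : A ≤ Subgroup.normalizer ((N.map K.subtype : Subgroup G) : Set G) := by
    intro a ha
    rw [Subgroup.mem_normalizer_iff]
    intro h
    constructor
    · rintro ⟨x, hx, rfl⟩
      exact ⟨φ ⟨a, ha⟩ x, hNS _ ⟨⟨a, ha⟩, rfl⟩ x hx, rfl⟩
    · rintro ⟨y, hy, hyx⟩
      have := hNS (φ ⟨a⁻¹, A.inv_mem ha⟩) ⟨_, rfl⟩ y hy
      refine ⟨_, this, ?_⟩
      have hy' : (y : G) = a * h * a⁻¹ := hyx
      simp [hφ, hy', mul_assoc]
  have hfix : ∀ a ∈ A, a * (κ : G) * a⁻¹ * (κ : G)⁻¹ ∈ N.map K.subtype := by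
    intro a ha
    have := hκ (φ ⟨a, ha⟩) ⟨⟨a, ha⟩, rfl⟩
    exact ⟨_, this, by simp [hφ]⟩
  have hsolv : Group.IsSolvable K := by
    have := hK.isNilpotent
    infer_instance
  obtain ⟨c, hc, hcN⟩ := Cfsg.Agent.S0022.result A K hAK hcop (Or.inr hsolv) (N.map K.subtype)
    hN'K hKN' hAN' (κ : G) κ.2 hfix
  have hcc : c ∈ ⁅K, K⁆ := fix_mem_commutator K A hAK hcop hKA hc.1 hc.2
  have hcN' : c ∈ N.map K.subtype := by
    rw [← Subgroup.map_subtype_commutator] at hcc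
    obtain ⟨w, hw, rfl⟩ := hcc
    exact ⟨w, hNc hw, rfl⟩
  apply hκN
  rw [← hmemN']
  have : (κ : G) = c * ((κ : G)⁻¹ * c)⁻¹ := by group
  rw [this]
  exact Subgroup.mul_mem _ hcN' (Subgroup.inv_mem _ hcN)

end internal

/-- in a metacyclic `p`-group (`p` odd), a subgroup missing an element of order dividing `p`
is cyclic -/
theorem cyc_of_avoid {R : Type*} [Group R] [Finite R] {p : ℕ} [Fact p.Prime] (hp2 : p ≠ 2)
    (hR : IsPGroup p R) (hm : Cfsg.IsMetacyclic R) (L : Subgroup R) (y : R) (hy : y ^ p = 1)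
    (hyL : y ∉ L) : IsCyclic ↥L := by
  have hpp : p.Prime := Fact.out
  by_cases hcyc : IsCyclic R
  · infer_instance
  obtain ⟨hel, hcard⟩ := Cfsg.Agent.S0638.result hp2 hR hm hcyc
  have hmemΩ : ∀ x : R, x ^ p = 1 → x ∈ Cfsg.omegaOne p (⊤ : Subgroup R) := fun x hx =>
    Subgroup.subset_closure ⟨Subgroup.mem_top x, hx⟩
  have hlt : Nat.card ↥(Cfsg.omegaOne p (⊤ : Subgroup R) ⊓ L) ≤ p := by
    have hdvd : Nat.card ↥(Cfsg.omegaOne p (⊤ : Subgroup R) ⊓ L) ∣ p ^ 2 := by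
      rw [← hcard]
      exact Subgroup.card_dvd_of_le inf_le_left
    obtain ⟨k, hk, hkc⟩ := (Nat.dvd_prime_pow hpp).mp hdvd
    have hk2 : k ≠ 2 := by
      intro h2
      rw [h2] at hkc
      have heq : Cfsg.omegaOne p (⊤ : Subgroup R) ⊓ L = Cfsg.omegaOne p (⊤ : Subgroup R) :=
        Subgroup.eq_of_le_of_card_ge inf_le_left (by rw [hkc, hcard])
      have hyΩ : y ∈ Cfsg.omegaOne p (⊤ : Subgroup R) ⊓ L := by
        rw [heq]
        exact hmemΩ y hy
      exact hyL hyΩ.2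
    have hk1 : k ≤ 1 := by omega
    rw [hkc]
    calc p ^ k ≤ p ^ 1 := Nat.pow_le_pow_right hpp.pos hk1
      _ = p := pow_one p
  have hkey : ∀ H : Subgroup ↥L, Nat.card H = p →
      H.map L.subtype = Cfsg.omegaOne p (⊤ : Subgroup R) ⊓ L := by
    intro H hH
    have hle : H.map L.subtype ≤ Cfsg.omegaOne p (⊤ : Subgroup R) ⊓ L := by
      rintro _ ⟨x, hx, rfl⟩
      refine ⟨hmemΩ _ ?_, x.2⟩
      have h1 : (⟨x, hx⟩ : H) ^ p = 1 := by
        rw [← hH]
        exact pow_card_eq_one'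
      have h2 := congrArg (fun z : H => ((z : L) : R)) h1
      simpa using h2
    refine Subgroup.eq_of_le_of_card_ge hle ?_
    rw [Subgroup.card_subtype, hH]
    exact hlt
  have huniq : ∀ H K : Subgroup ↥L, Nat.card H = p → Nat.card K = p → H = K := by
    intro H K hH hK
    apply Subgroup.map_injective L.subtype_injective
    rw [hkey H hH, hkey K hK]
  rcases Cfsg.Agent.S0016.result p (hR.to_subgroup L) huniq with h | ⟨h2, -⟩
  · exact h
  · exact absurd h2 hp2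

end Cfsg.Agent.Lib.Helper8.MetaOdd
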