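import Mathlib

set_option autoImplicit false

namespace Cfsg.Agent.Lib.Helper8.PSL2Rec

open Matrix OnePoint

variable {K : Type*} [Field K] [DecidableEq K]

theorem act_infty (A : Matrix.SpecialLinearGroup (Fin 2) K) :
    (Matrix.SpecialLinearGroup.toGL A) • (∞ : OnePoint K) =
      if A 1 0 = 0 then ∞ else ((A 0 0 / A 1 0 : K) : OnePoint K) :=
  smul_infty_eq_ite _

theorem act_coe (A : Matrix.SpecialLinearGroup (Fin 2) K) (k : K) :
    (Matrix.SpecialLinearGroup.toGL A) • (k : OnePoint K) =
      if A 1 0 * k + A 1 1 = 0 then ∞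
      else (((A 0 0 * k + A 0 1) / (A 1 0 * k + A 1 1) : K) : OnePoint K) :=
  smul_some_eq_ite

theorem det_eq (A : Matrix.SpecialLinearGroup (Fin 2) K) :
    A 0 0 * A 1 1 - A 0 1 * A 1 0 = 1 := by
  have := A.2
  rw [Matrix.det_fin_two] at this
  exact this

theorem act_trivial_iff (A : Matrix.SpecialLinearGroup (Fin 2) K) :
    (∀ p : OnePoint K, (Matrix.SpecialLinearGroup.toGL A) • p = p) ↔
      A ∈ Subgroup.center (Matrix.SpecialLinearGroup (Fin 2) K) := by
  rw [Matrix.SpecialLinearGroup.mem_center_iff]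
  constructor
  · intro h
    have hdet := det_eq A
    have h1 := h ∞
    rw [act_infty] at h1
    have h10 : A 1 0 = 0 := by
      by_contra hne
      rw [if_neg hne] at h1
      exact OnePoint.coe_ne_infty _ h1
    rw [h10, mul_zero, sub_zero] at hdet
    have h11 : A 1 1 ≠ 0 := by
      intro h0
      rw [h0, mul_zero] at hdet
      exact zero_ne_one hdet
    have h2 := h ((0 : K) : OnePoint K)
    rw [act_coe, h10, mul_zero, zero_add, if_neg h11, mul_zero, zero_add, OnePoint.coe_eq_coe] at h2
    have h01 : A 0 1 = 0 := by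
      rcases div_eq_zero_iff.mp h2 with h | h
      · exact h
      · exact absurd h h11
    have h3 := h ((1 : K) : OnePoint K)
    rw [act_coe, h10, zero_mul, zero_add, if_neg h11, mul_one, h01, add_zero,
      OnePoint.coe_eq_coe, div_eq_one_iff_eq h11] at h3
    refine ⟨A 0 0, ?_, ?_⟩
    · rw [Fintype.card_fin, sq]
      nth_rewrite 2 [h3]
      exact hdet
    · ext i j
      fin_cases i <;> fin_cases j <;> simp [h10, h01, h3]
  · rintro ⟨r, hr, hA⟩ p
    have hr0 : r ≠ 0 := by
      rintro rfl
      rw [Fintype.card_fin] at hr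
      simp at hr
    have e00 : A 0 0 = r := by rw [← hA]; simp
    have e01 : A 0 1 = 0 := by rw [← hA]; simp
    have e10 : A 1 0 = 0 := by rw [← hA]; simp
    have e11 : A 1 1 = r := by rw [← hA]; simp
    cases p with
    | infty => rw [act_infty, if_pos e10]
    | coe k =>
      rw [act_coe, e10, e11, e00, e01, zero_mul, zero_add, if_neg hr0, add_zero,
        mul_div_cancel_left₀ _ hr0]

theorem recognize {G X : Type*} [Group G] [MulAction G X]
    (hfaith : ∀ g : G, (∀ x : X, g • x = x) → g = 1) (η : OnePoint K → X)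
    (hη : Function.Bijective η)
    (h1 : ∀ g : G, ∃ A : Matrix.SpecialLinearGroup (Fin 2) K,
      ∀ p, g • η p = η ((Matrix.SpecialLinearGroup.toGL A) • p))
    (h2 : ∀ A : Matrix.SpecialLinearGroup (Fin 2) K, ∃ g : G,
      ∀ p, g • η p = η ((Matrix.SpecialLinearGroup.toGL A) • p)) :
    Nonempty (G ≃* Matrix.ProjectiveSpecialLinearGroup (Fin 2) K) := by
  classical
  choose f hf using h1
  have hwd : ∀ (g : G) (A : Matrix.SpecialLinearGroup (Fin 2) K),
      (∀ p, g • η p = η ((Matrix.SpecialLinearGroup.toGL A) • p)) →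
      (QuotientGroup.mk A : Matrix.ProjectiveSpecialLinearGroup (Fin 2) K) =
        QuotientGroup.mk (f g) := by
    intro g A hA
    rw [QuotientGroup.eq, ← act_trivial_iff]
    intro p
    rw [map_mul, mul_smul, map_inv, inv_smul_eq_iff]
    apply hη.1
    rw [← hf g p, ← hA p]
  let φ : G →* Matrix.ProjectiveSpecialLinearGroup (Fin 2) K :=
    { toFun := fun g => QuotientGroup.mk (f g)
      map_one' := by
        symm
        apply hwd
        intro p
        rw [one_smul, map_one, one_smul]
      map_mul' := by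
        intro a b
        symm
        rw [← QuotientGroup.mk_mul]
        apply hwd
        intro p
        rw [mul_smul, hf b p, hf a, map_mul, mul_smul] }
  refine ⟨MulEquiv.ofBijective φ ⟨?_, ?_⟩⟩
  · rw [injective_iff_map_eq_one]
    intro g hg
    have h3 : f g ∈ Subgroup.center (Matrix.SpecialLinearGroup (Fin 2) K) :=
      (QuotientGroup.eq_one_iff _).mp hg
    rw [← act_trivial_iff] at h3
    apply hfaith
    intro x
    obtain ⟨p, rfl⟩ := hη.2 x
    rw [hf g p, h3 p]
  · intro q
    induction q using QuotientGroup.induction_on with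
    | H A =>
      obtain ⟨g, hg⟩ := h2 A
      exact ⟨g, (hwd g A hg).symm⟩

end Cfsg.Agent.Lib.Helper8.PSL2Rec
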