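import Mathlib
import Cfsg.Prelude.Def_LieRecognition

set_option autoImplicit false

namespace Cfsg.Agent.Lib.Helper8.R1

open MulAction

variable {G : Type*} [Group G]

theorem mem_sup_of_normalizes {H K : Subgroup G} (hK : ∀ k ∈ K, ∀ h ∈ H, k * h * k⁻¹ ∈ H) {x : G}
    (hx : x ∈ H ⊔ K) : ∃ h ∈ H, ∃ k ∈ K, x = h * k := by
  rw [Subgroup.sup_eq_closure] at hx
  induction hx using Subgroup.closure_induction with
  | mem x hx =>
    rcases hx with hx | hx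
    · exact ⟨x, hx, 1, K.one_mem, by simp⟩
    · exact ⟨1, H.one_mem, x, hx, by simp⟩
  | one => exact ⟨1, H.one_mem, 1, K.one_mem, by simp⟩
  | mul x y _ _ ihx ihy =>
    obtain ⟨h, hh, k, hk, rfl⟩ := ihx
    obtain ⟨h', hh', k', hk', rfl⟩ := ihy
    refine ⟨h * (k * h' * k⁻¹), H.mul_mem hh (hK k hk h' hh'), k * k', K.mul_mem hk hk', by group⟩
  | inv x _ ih =>
    obtain ⟨h, hh, k, hk, rfl⟩ := ih
    refine ⟨k⁻¹ * h⁻¹ * k⁻¹⁻¹, hK _ (K.inv_mem hk) _ (H.inv_mem hh), k⁻¹, K.inv_mem hk, by group⟩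

variable {Ω : Type*} [MulAction G Ω] {a : Ω} {t : G} {Q : Subgroup G}

theorem tinv (hS : Cfsg.IsRankOneSetup G Ω a t Q) : t⁻¹ = t :=
  inv_eq_of_mul_eq_one_left hS.mul_self

theorem ta_ne (hS : Cfsg.IsRankOneSetup G Ω a t Q) : t • a ≠ a := by
  intro h; exact hS.not_mem (mem_stabilizer_iff.mpr h)

theorem tta (hS : Cfsg.IsRankOneSetup G Ω a t Q) : t • t • a = a := by
  rw [smul_smul, hS.mul_self, one_smul]

theorem two_trans (hS : Cfsg.IsRankOneSetup G Ω a t Q) {c d e f : Ω} (h1 : c ≠ d) (h2 : e ≠ f) :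
    ∃ g : G, g • c = e ∧ g • d = f :=
  (is_two_pretransitive_iff.mp hS.two_transitive) h1 h2

theorem D_normalizes (hS : Cfsg.IsRankOneSetup G Ω a t Q) :
    ∀ k ∈ stabilizer G a ⊓ stabilizer G (t • a), ∀ h ∈ Q, k * h * k⁻¹ ∈ Q :=
  fun k hk h hh => hS.conj_mem k hk.1 h hh

theorem exists_mul_of_mem_stab (hS : Cfsg.IsRankOneSetup G Ω a t Q) {g : G} (hg : g ∈ stabilizer G a) :
    ∃ q ∈ Q, ∃ d ∈ stabilizer G a ⊓ stabilizer G (t • a), g = q * d := by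
  rw [← hS.sup_eq] at hg
  exact mem_sup_of_normalizes (D_normalizes hS) hg

theorem Q_inter_D (hS : Cfsg.IsRankOneSetup G Ω a t Q) {x : G} (hx : x ∈ Q)
    (hx' : x ∈ stabilizer G (t • a)) : x = 1 := by
  have : x ∈ Q ⊓ stabilizer G (t • a) := ⟨hx, hx'⟩
  rw [hS.inf_eq_bot] at this
  exact Subgroup.mem_bot.mp this

theorem exists_Q_smul (hS : Cfsg.IsRankOneSetup G Ω a t Q) {c : Ω} (hc : c ≠ a) :
    ∃ x ∈ Q, x • (t • a) = c := by
  obtain ⟨g, hg1, hg2⟩ := two_trans hS (ta_ne hS).symm hc.symm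
  obtain ⟨q, hq, d, hd, rfl⟩ := exists_mul_of_mem_stab hS (mem_stabilizer_iff.mpr hg1)
  refine ⟨q, hq, ?_⟩
  rw [mul_smul, mem_stabilizer_iff.mp hd.2] at hg2
  exact hg2

theorem Q_fix_eq_one (hS : Cfsg.IsRankOneSetup G Ω a t Q) {c : Ω} (hc : c ≠ a) {x : G} (hx : x ∈ Q)
    (hxc : x • c = c) : x = 1 := by
  obtain ⟨y, hy, rfl⟩ := exists_Q_smul hS hc
  have h1 : y⁻¹ * x * y⁻¹⁻¹ ∈ Q := hS.conj_mem _ (hS.le (Q.inv_mem hy)) _ hx
  have h2 : y⁻¹ * x * y⁻¹⁻¹ ∈ stabilizer G (t • a) := by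
    rw [mem_stabilizer_iff, inv_inv, mul_smul, mul_smul, hxc, inv_smul_smul]
  have h3 := Q_inter_D hS h1 h2
  calc x = y * (y⁻¹ * x * y⁻¹⁻¹) * y⁻¹ := by group
    _ = 1 := by rw [h3]; group

theorem Q_regular (hS : Cfsg.IsRankOneSetup G Ω a t Q) {c d : Ω} (hc : c ≠ a) (hd : d ≠ a) :
    ∃! x : Q, (x : G) • c = d := by
  obtain ⟨y, hy, rfl⟩ := exists_Q_smul hS hc
  obtain ⟨y', hy', rfl⟩ := exists_Q_smul hS hd
  refine ⟨⟨y' * y⁻¹, Q.mul_mem hy' (Q.inv_mem hy)⟩, ?_, ?_⟩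
  · show (y' * y⁻¹) • y • t • a = y' • t • a
    rw [mul_smul, inv_smul_smul]
  · rintro ⟨z, hz⟩ hz'
    have hz'' : z • y • t • a = y' • t • a := hz'
    apply Subtype.ext
    show z = y' * y⁻¹
    have h1 : (y'⁻¹ * z * y) ∈ Q := Q.mul_mem (Q.mul_mem (Q.inv_mem hy') hz) hy
    have h2 : (y'⁻¹ * z * y) ∈ stabilizer G (t • a) := by
      rw [mem_stabilizer_iff, mul_smul, mul_smul, hz'', inv_smul_smul]
    have h3 := Q_inter_D hS h1 h2
    calc z = y' * (y'⁻¹ * z * y) * y⁻¹ := by group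
      _ = y' * y⁻¹ := by rw [h3, mul_one]

theorem fix_only (hS : Cfsg.IsRankOneSetup G Ω a t Q) {x : G} (hx : x ∈ Q) (hx1 : x ≠ 1) {c : Ω}
    (hxc : x • c = c) : c = a := by
  by_contra hc
  exact hx1 (Q_fix_eq_one hS hc hx hxc)

theorem exists_ne_one (hS : Cfsg.IsRankOneSetup G Ω a t Q) : ∃ x ∈ Q, x ≠ 1 := by
  by_contra h
  push Not at h
  have hQ : Q = ⊥ := by
    rw [Subgroup.eq_bot_iff_forall]; exact h
  have := hS.even_card
  rw [hQ, Subgroup.card_bot] at this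
  exact absurd this (by decide)

theorem decomp_unique (hS : Cfsg.IsRankOneSetup G Ω a t Q) {q q' d d' : G} (hq : q ∈ Q) (hq' : q' ∈ Q)
    (hd : d ∈ stabilizer G a ⊓ stabilizer G (t • a)) (hd' : d' ∈ stabilizer G a ⊓ stabilizer G (t • a))
    (h : q * d = q' * d') : q = q' ∧ d = d' := by
  have h1 : q'⁻¹ * q = d' * d⁻¹ := by
    calc q'⁻¹ * q = q'⁻¹ * (q * d) * d⁻¹ := by group
      _ = q'⁻¹ * (q' * d') * d⁻¹ := by rw [h]
      _ = d' * d⁻¹ := by group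
  have h2 : q'⁻¹ * q ∈ Q := Q.mul_mem (Q.inv_mem hq') hq
  have h3 : q'⁻¹ * q ∈ stabilizer G (t • a) := by
    rw [h1]; exact Subgroup.mul_mem _ hd'.2 (Subgroup.inv_mem _ hd.2)
  have h4 := Q_inter_D hS h2 h3
  have h5 : q = q' := by
    calc q = q' * (q'⁻¹ * q) := by group
      _ = q' := by rw [h4, mul_one]
  refine ⟨h5, ?_⟩
  subst h5
  exact mul_left_cancel h

theorem tDt (hS : Cfsg.IsRankOneSetup G Ω a t Q) {d : G}
    (hd : d ∈ stabilizer G a ⊓ stabilizer G (t • a)) :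
    t * d * t ∈ stabilizer G a ⊓ stabilizer G (t • a) := by
  refine Subgroup.mem_inf.mpr ⟨?_, ?_⟩
  · rw [mem_stabilizer_iff, mul_smul, mul_smul, mem_stabilizer_iff.mp hd.2, tta hS]
  · rw [mem_stabilizer_iff, mul_smul, mul_smul, tta hS, mem_stabilizer_iff.mp hd.1]

theorem canon_unique (hS : Cfsg.IsRankOneSetup G Ω a t Q) {x x' y y' : G}
    (hx : x ∈ stabilizer G a) (hx' : x' ∈ stabilizer G a) (hy : y ∈ Q) (hy' : y' ∈ Q)
    (h : x * t * y = x' * t * y') : x = x' ∧ y = y' := by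
  have h1 : (y' * y⁻¹) ∈ stabilizer G (t • a) := by
    have e : y' * y⁻¹ = t⁻¹ * (x'⁻¹ * x) * t := by
      calc y' * y⁻¹ = t⁻¹ * x'⁻¹ * (x' * t * y') * y⁻¹ := by group
        _ = t⁻¹ * x'⁻¹ * (x * t * y) * y⁻¹ := by rw [h]
        _ = t⁻¹ * (x'⁻¹ * x) * t := by group
    rw [e, tinv hS, mem_stabilizer_iff, mul_smul, mul_smul, tta hS]
    have : (x'⁻¹ * x) • a = a :=
      mem_stabilizer_iff.mp (Subgroup.mul_mem _ (Subgroup.inv_mem _ hx') hx)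
    rw [this]
  have h2 := Q_inter_D hS (Q.mul_mem hy' (Q.inv_mem hy)) h1
  have h3 : y = y' := by
    calc y = (y' * y⁻¹)⁻¹ * y' := by group
      _ = y' := by rw [h2]; group
  subst h3
  exact ⟨mul_right_cancel (mul_right_cancel h), rfl⟩

theorem invol_mem_Q [Finite G] (hS : Cfsg.IsRankOneSetup G Ω a t Q) {s : G} (hs : s ∈ stabilizer G a)
    (hss : s * s = 1) : s ∈ Q := by
  obtain ⟨q, hq, d, hd, rfl⟩ := exists_mul_of_mem_stab hS hs
  have h1 : d * d ∈ Q := by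
    have e : d * d = (d * q * d⁻¹)⁻¹ * q⁻¹ * (q * d * (q * d)) := by group
    rw [e, hss, mul_one]
    exact Q.mul_mem (Q.inv_mem (D_normalizes hS d hd q hq)) (Q.inv_mem hq)
  have h2 : d * d = 1 := Q_inter_D hS h1 (Subgroup.mul_mem _ hd.2 hd.2)
  have h3 : orderOf (⟨d, hd⟩ : ↥(stabilizer G a ⊓ stabilizer G (t • a))) ∣ 2 := by
    apply orderOf_dvd_of_pow_eq_one
    apply Subtype.ext
    show d ^ 2 = 1
    rw [pow_two]; exact h2
  have h4 : orderOf (⟨d, hd⟩ : ↥(stabilizer G a ⊓ stabilizer G (t • a))) ∣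
      Nat.card ↥(stabilizer G a ⊓ stabilizer G (t • a)) := orderOf_dvd_natCard _
  have h5 : orderOf (⟨d, hd⟩ : ↥(stabilizer G a ⊓ stabilizer G (t • a))) = 1 := by
    have h6 := Nat.dvd_gcd h3 h4
    have h7 : Nat.gcd 2 (Nat.card ↥(stabilizer G a ⊓ stabilizer G (t • a))) = 1 := by
      rw [← Nat.coprime_iff_gcd_eq_one, Nat.coprime_two_left]
      exact hS.odd_card
    rw [h7] at h6
    exact Nat.dvd_one.mp h6
  have h6 : (⟨d, hd⟩ : ↥(stabilizer G a ⊓ stabilizer G (t • a))) = 1 := orderOf_eq_one_iff.mp h5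
  have h7 : d = 1 := congrArg Subtype.val h6
  rw [h7, mul_one]; exact hq

end Cfsg.Agent.Lib.Helper8.R1
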