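import Mathlib
import Cfsg.Prelude.Def_LieRecognition
import Cfsg.Prelude.Def_Involutions
import Cfsg.Agent.Lib.Helper8.R1
import Cfsg.Agent.Lib.Helper8.SE

set_option autoImplicit false

namespace Cfsg.Agent.Lib.Helper8.R1SE

open MulAction Cfsg.Agent.Lib.Helper8.R1 Cfsg.Agent.Lib.Helper8.SE Cfsg.Agent.Lib.Helper8.IsoInv
  Cfsg.Agent.Lib.Helper8.Conj Cfsg.Agent.Lib.Helper8.Dih

variable {G : Type*} [Group G] {Ω : Type*} [MulAction G Ω] {a : Ω} {t : G} {Q : Subgroup G}

theorem stab_map_conj (g : G) (c : Ω) :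
    (stabilizer G c).map (MulAut.conj g).toMonoidHom = stabilizer G (g • c) := by
  ext x
  rw [mem_map_conj, mem_stabilizer_iff, mem_stabilizer_iff, mul_smul, mul_smul, inv_smul_eq_iff]

theorem stab_se [Finite G] (hS : Cfsg.IsRankOneSetup G Ω a t Q) :
    Cfsg.IsStronglyEmbedded (stabilizer G a) := by
  refine ⟨?_, ?_, ?_⟩
  · intro h
    apply hS.not_mem
    rw [h]; exact Subgroup.mem_top t
  · have h1 : Nat.card Q ∣ Nat.card (stabilizer G a) := Subgroup.card_dvd_of_le hS.le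
    exact (even_iff_two_dvd.mpr (dvd_trans (even_iff_two_dvd.mp hS.even_card) h1))
  · intro g hg
    have hga : g • a ≠ a := fun h => hg (mem_stabilizer_iff.mpr h)
    obtain ⟨h, hh1, hh2⟩ := two_trans hS (ta_ne hS).symm hga.symm
    have e : stabilizer G a ⊓ (stabilizer G a).map (MulAut.conj g).toMonoidHom =
        (stabilizer G a ⊓ stabilizer G (t • a)).map (MulAut.conj h).toMonoidHom := by
      rw [stab_map_conj]
      ext x
      rw [mem_map_conj, Subgroup.mem_inf, Subgroup.mem_inf, mem_stabilizer_iff, mem_stabilizer_iff,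
        mem_stabilizer_iff, mem_stabilizer_iff, mul_smul, mul_smul, mul_smul, mul_smul, hh1, hh2,
        inv_smul_eq_iff, inv_smul_eq_iff, hh1, hh2]
    rw [e, card_map_conj]
    exact hS.odd_card

theorem exists_invol_Q [Finite G] (hS : Cfsg.IsRankOneSetup G Ω a t Q) : ∃ z ∈ Q, z ≠ 1 ∧ z * z = 1 := by
  have : Fact (Nat.Prime 2) := ⟨Nat.prime_two⟩
  obtain ⟨s, hs⟩ := exists_prime_orderOf_dvd_card' (G := Q) 2 (even_iff_two_dvd.mp hS.even_card)
  have hs' : orderOf (s : G) = 2 := by rw [Subgroup.orderOf_coe]; exact hs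
  exact ⟨s, s.2, ne_one_of_orderOf_two hs', mul_self_of_orderOf_two hs'⟩

theorem exists_conj_mem_Q [Finite G] (hS : Cfsg.IsRankOneSetup G Ω a t Q) {u : G} (hu1 : u ≠ 1)
    (huu : u * u = 1) : ∃ g : G, g⁻¹ * u * g ∈ Q := by
  obtain ⟨z, hzQ, hz1, hzz⟩ := exists_invol_Q hS
  have hse := stab_se hS
  by_cases hu : u ∈ stabilizer G a
  · exact ⟨1, by simpa using invol_mem_Q hS hu huu⟩
  · have hodd : Odd (orderOf (z * u)) := by
      apply odd_mul_of_mem hse (orderOf_two_of hzz hz1) (orderOf_two_of huu hu1) (hS.le hzQ) hu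
    obtain ⟨g, hg⟩ := conj_of_odd hzz huu hodd
    refine ⟨g, ?_⟩
    rw [← hg]
    have : g⁻¹ * (g * z * g⁻¹) * g = z := by group
    rw [this]; exact hzQ

theorem invol_fix_unique [Finite G] (hS : Cfsg.IsRankOneSetup G Ω a t Q) {u : G} (hu1 : u ≠ 1)
    (huu : u * u = 1) : ∃ c : Ω, u • c = c ∧ ∀ d : Ω, u • d = d → d = c := by
  obtain ⟨g, hg⟩ := exists_conj_mem_Q hS hu1 huu
  have hne : g⁻¹ * u * g ≠ 1 := by
    intro h
    apply hu1
    calc u = g * (g⁻¹ * u * g) * g⁻¹ := by group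
      _ = 1 := by rw [h]; group
  refine ⟨g • a, ?_, ?_⟩
  · have := mem_stabilizer_iff.mp (hS.le hg)
    rw [mul_smul, mul_smul, inv_smul_eq_iff] at this
    exact this
  · intro d hd
    have : g⁻¹ • d = a := by
      apply fix_only hS hg hne
      rw [mul_smul, mul_smul, smul_inv_smul, hd]
    rw [← this, smul_inv_smul]

theorem mul_self_tk (hS : Cfsg.IsRankOneSetup G Ω a t Q) {k : G} (hk : t * k * t⁻¹ = k⁻¹) :
    (t * k) * (t * k) = 1 := by
  have ht := tinv hS
  rw [ht] at hk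
  calc (t * k) * (t * k) = (t * k * t) * k := by group
    _ = 1 := by rw [hk]; group

theorem tk_ne_one (hS : Cfsg.IsRankOneSetup G Ω a t Q) {k : G} (hk : k ∈ stabilizer G a) :
    t * k ≠ 1 := by
  intro h
  apply hS.not_mem
  have : t = k⁻¹ := eq_inv_of_mul_eq_one_left h
  rw [this]; exact Subgroup.inv_mem _ hk

theorem K_inj [Finite G] (hS : Cfsg.IsRankOneSetup G Ω a t Q) {z : G} (hz : z ∈ stabilizer G a)
    (hz1 : z ≠ 1) (hzz : z * z = 1) {k k' : G}
    (hk : k ∈ Cfsg.invertedBy (stabilizer G a ⊓ stabilizer G (t • a)) t)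
    (hk' : k' ∈ Cfsg.invertedBy (stabilizer G a ⊓ stabilizer G (t • a)) t)
    (h : k * z * k⁻¹ = k' * z * k'⁻¹) : k = k' := by
  have hse := stab_se hS
  have hw : orderOf (t * k) = 2 := orderOf_two_of (mul_self_tk hS hk.2) (tk_ne_one hS hk.1.1)
  have hw' : orderOf (t * k') = 2 := orderOf_two_of (mul_self_tk hS hk'.2) (tk_ne_one hS hk'.1.1)
  have h1 : (1 : G)⁻¹ * z * 1 ∈ stabilizer G a := by simpa using hz
  have h2 : t⁻¹ * (t * k) * 1 ∈ stabilizer G a := by
    have : t⁻¹ * (t * k) * 1 = k := by group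
    rw [this]; exact hk.1.1
  have h2' : t⁻¹ * (t * k') * 1 ∈ stabilizer G a := by
    have : t⁻¹ * (t * k') * 1 = k' := by group
    rw [this]; exact hk'.1.1
  have hne : (1 : G)⁻¹ * t ∉ stabilizer G a := by simpa using hS.not_mem
  have heq : (t * k) * z * (t * k)⁻¹ = (t * k') * z * (t * k')⁻¹ := by
    calc (t * k) * z * (t * k)⁻¹ = t * (k * z * k⁻¹) * t⁻¹ := by group
      _ = t * (k' * z * k'⁻¹) * t⁻¹ := by rw [h]
      _ = (t * k') * z * (t * k')⁻¹ := by group
  have := swap_unique hse (orderOf_two_of hzz hz1) hw hw' h1 h2 h2' hne heq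
  exact mul_left_cancel this

theorem K_surj [Finite G] (hS : Cfsg.IsRankOneSetup G Ω a t Q) {z : G} (hz : z ∈ stabilizer G a)
    (hz1 : z ≠ 1) (hzz : z * z = 1) {s : G} (hs : s ∈ stabilizer G a) (hs1 : s ≠ 1)
    (hss : s * s = 1) :
    ∃ k ∈ Cfsg.invertedBy (stabilizer G a ⊓ stabilizer G (t • a)) t, k * z * k⁻¹ = s := by
  have hse := stab_se hS
  have ht := tinv hS
  have h1 : (1 : G)⁻¹ * z * 1 ∈ stabilizer G a := by simpa using hz
  have hne : (1 : G)⁻¹ * t ∉ stabilizer G a := by simpa using hS.not_mem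
  have hz' : orderOf (t * s * t⁻¹) = 2 := by
    rw [orderOf_conj_eq]; exact orderOf_two_of hss hs1
  have h2 : t⁻¹ * (t * s * t⁻¹) * t ∈ stabilizer G a := by
    have : t⁻¹ * (t * s * t⁻¹) * t = s := by group
    rw [this]; exact hs
  obtain ⟨w, hw, hwH, hwz⟩ := exists_swap hse (orderOf_two_of hzz hz1) hz' h1 h2 hne
  have hww := mul_self_of_orderOf_two hw
  have hwi : w⁻¹ = w := inv_eq_self_of_mul_self hww
  rw [mul_one, ht] at hwH
  have hwa : w • a = t • a := by
    have := mem_stabilizer_iff.mp hwH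
    rw [mul_smul] at this
    calc w • a = t • t • w • a := by rw [smul_smul t t, hS.mul_self, one_smul]
      _ = t • a := by rw [this]
  have hwb : w • t • a = a := by
    rw [← hwa, smul_smul, hww, one_smul]
  refine ⟨t * w, ⟨Subgroup.mem_inf.mpr ⟨hwH, ?_⟩, ?_⟩, ?_⟩
  · rw [mem_stabilizer_iff, mul_smul, hwb]
  · rw [mul_inv_rev, hwi, ht]
    calc t * (t * w) * t = (t * t) * w * t := by group
      _ = w * t := by rw [hS.mul_self, one_mul]
  · calc t * w * z * (t * w)⁻¹ = t * (w * z * w⁻¹) * t⁻¹ := by group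
      _ = t * (t * s * t⁻¹) * t⁻¹ := by rw [hwz]
      _ = s := by rw [ht]; calc t * (t * s * t) * t = (t * t) * s * (t * t) := by group
                    _ = s := by rw [hS.mul_self, one_mul, mul_one]

theorem exists_smul_eq (hS : Cfsg.IsRankOneSetup G Ω a t Q) (c : Ω) : ∃ g : G, g • a = c := by
  by_cases h : c = a
  · exact ⟨1, by rw [one_smul, h]⟩
  · obtain ⟨g, hg, _⟩ := two_trans hS (ta_ne hS).symm h
    exact ⟨g, hg⟩

theorem core_le_D (hS : Cfsg.IsRankOneSetup G Ω a t Q) :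
    (stabilizer G a).normalCore ≤ stabilizer G a ⊓ stabilizer G (t • a) := by
  intro x hx
  refine Subgroup.mem_inf.mpr ⟨Subgroup.normalCore_le _ hx, ?_⟩
  have h1 : t⁻¹ * x * t⁻¹⁻¹ ∈ (stabilizer G a).normalCore :=
    (Subgroup.normalCore_normal (stabilizer G a)).conj_mem x hx t⁻¹
  have h2 := mem_stabilizer_iff.mp (Subgroup.normalCore_le _ h1)
  rw [inv_inv, mul_smul, mul_smul, inv_smul_eq_iff] at h2
  exact mem_stabilizer_iff.mpr h2

theorem odd_normal_le_stab [Finite G] (hS : Cfsg.IsRankOneSetup G Ω a t Q)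
    (h2 : ∃ x y : G, x ≠ 1 ∧ y ≠ 1 ∧ x ≠ y ∧ x * x = 1 ∧ y * y = 1 ∧ x * y = y * x)
    {N : Subgroup G} (hN : N.Normal) (hodd : (Nat.card N).Coprime 2) : N ≤ stabilizer G a := by
  obtain ⟨x, y, hx1, hy1, hxy, hxx, hyy, hcomm⟩ := h2
  obtain ⟨c, hxc, hxcu⟩ := invol_fix_unique hS hx1 hxx
  obtain ⟨c', hyc', hycu⟩ := invol_fix_unique hS hy1 hyy
  have hyc : y • c = c := by
    apply hxcu
    rw [← mul_smul, hcomm, mul_smul, hxc]
  have hcc : c = c' := hycu c hyc
  subst hcc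
  obtain ⟨g, hg⟩ := exists_smul_eq hS c
  have hse := stab_se hS
  have hyi : y⁻¹ = y := inv_eq_self_of_mul_self hyy
  have hxy1 : x * y ≠ 1 := by
    intro h
    apply hxy
    rw [← hyi]
    exact eq_inv_of_mul_eq_one_left h
  have hxy2 : (x * y) * (x * y) = 1 := by
    calc (x * y) * (x * y) = x * (y * x) * y := by group
      _ = x * (x * y) * y := by rw [hcomm]
      _ = (x * x) * (y * y) := by group
      _ = 1 := by rw [hxx, hyy, one_mul]
  have hxyN : x * y ∉ N := by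
    intro h
    have h3 : orderOf (⟨x * y, h⟩ : N) = 2 := by
      rw [← Subgroup.orderOf_coe]; exact orderOf_two_of hxy2 hxy1
    have h4 := orderOf_dvd_natCard (⟨x * y, h⟩ : N)
    rw [h3] at h4
    have := Nat.Coprime.eq_one_of_dvd hodd.symm h4
    omega
  have key : ∀ m ∈ N, m • c = c := by
    intro m hm
    by_contra hmc
    have h1 : g⁻¹ * x * g ∈ stabilizer G a := by
      rw [mem_stabilizer_iff, mul_smul, mul_smul, hg, hxc, ← hg, inv_smul_smul]
    have h2 : g⁻¹ * (m * y * m⁻¹) * g ∉ stabilizer G a := by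
      intro h
      rw [mem_stabilizer_iff, mul_smul, mul_smul, hg, inv_smul_eq_iff, hg, mul_smul, mul_smul,
        ← eq_inv_smul_iff] at h
      have := hycu _ h
      apply hmc
      rw [eq_comm, ← inv_smul_eq_iff]
      exact this
    have hy' : orderOf (m * y * m⁻¹) = 2 := by
      rw [orderOf_conj_eq]; exact orderOf_two_of hyy hy1
    obtain ⟨j, hj⟩ := odd_mul hse (orderOf_two_of hxx hx1) hy' h1 h2
    have hn : y⁻¹ * m * y * m⁻¹ ∈ N := by
      have : y⁻¹ * m * y⁻¹⁻¹ ∈ N := hN.conj_mem m hm y⁻¹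
      rw [inv_inv] at this
      exact N.mul_mem this (N.inv_mem hm)
    have e1 : x * (m * y * m⁻¹) = (x * y) * (y⁻¹ * m * y * m⁻¹) := by group
    have e2 : (QuotientGroup.mk' N) (x * (m * y * m⁻¹)) = (QuotientGroup.mk' N) (x * y) := by
      have e5 : (QuotientGroup.mk' N) (y⁻¹ * m * y * m⁻¹) = 1 := (QuotientGroup.eq_one_iff _).mpr hn
      rw [e1, map_mul, e5, mul_one]
    have e3 : (QuotientGroup.mk' N) (x * y) ^ (2 * j + 1) = 1 := by
      rw [← e2, ← map_pow, ← hj, pow_orderOf_eq_one, map_one]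
    have e4 : (x * y) ^ (2 * j + 1) = x * y := by
      rw [pow_succ, pow_mul, pow_two, hxy2, one_pow, one_mul]
    rw [← map_pow, e4] at e3
    exact hxyN ((QuotientGroup.eq_one_iff _).mp e3)
  intro m hm
  have h1 : g * m * g⁻¹ ∈ N := hN.conj_mem m hm g
  have h2 := key _ h1
  rw [mul_smul, mul_smul, ← hg, inv_smul_smul, smul_left_cancel_iff] at h2
  exact mem_stabilizer_iff.mpr h2

end Cfsg.Agent.Lib.Helper8.R1SE
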