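import Mathlib
import Cfsg.Prelude.Def_LieRecognition
import Cfsg.Prelude.Def_Involutions
import Cfsg.Agent.Lib.Helper8.R1SE

set_option autoImplicit false

namespace Cfsg.Agent.Lib.Helper8.R1Fix

open MulAction Cfsg.Agent.Lib.Helper8.R1 Cfsg.Agent.Lib.Helper8.SE Cfsg.Agent.Lib.Helper8.IsoInv
  Cfsg.Agent.Lib.Helper8.Conj Cfsg.Agent.Lib.Helper8.Dih Cfsg.Agent.Lib.Helper8.R1SE

variable {G : Type*} [Group G] {Ω : Type*} [MulAction G Ω] {a : Ω} {t : G} {Q : Subgroup G}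

theorem Q_comm (hS : Cfsg.IsRankOneSetup G Ω a t Q) {x q : G} {e : Ω} (hx : x ∈ stabilizer G a)
    (hq : q ∈ Q) (he : e ≠ a) (hxe : x • e = e) (hxqe : x • q • e = q • e) : x * q = q * x := by
  have hqe : q • e ≠ a := by
    intro h
    apply he
    have := mem_stabilizer_iff.mp (hS.le hq)
    rw [← this] at h
    exact smul_left_cancel q h
  obtain ⟨q₀, _, hu⟩ := Q_regular hS he hqe
  have h1 := hu ⟨q, hq⟩ rfl
  have h2 := hu ⟨x * q * x⁻¹, hS.conj_mem x hx q hq⟩ (by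
    show (x * q * x⁻¹) • e = q • e
    rw [mul_smul, mul_smul, inv_smul_eq_iff.mpr hxe.symm, hxqe])
  have h3 : x * q * x⁻¹ = q := congrArg Subtype.val (h2.trans h1.symm)
  calc x * q = (x * q * x⁻¹) * x := by group
    _ = q * x := by rw [h3]

theorem exists_cent_stab (hS : Cfsg.IsRankOneSetup G Ω a t Q) (X : Set G) {p e e' : Ω}
    (hXp : ∀ x ∈ X, x • p = p) (he : e ≠ p) (he' : e' ≠ p) (hXe : ∀ x ∈ X, x • e = e)
    (hXe' : ∀ x ∈ X, x • e' = e') :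
    ∃ g ∈ Subgroup.centralizer X, g • p = p ∧ g • e = e' := by
  obtain ⟨g₀, hg₀⟩ := exists_smul_eq hS p
  have h1 : g₀⁻¹ • e ≠ a := by
    intro h
    apply he
    rw [← hg₀, ← h, smul_inv_smul]
  have h2 : g₀⁻¹ • e' ≠ a := by
    intro h
    apply he'
    rw [← hg₀, ← h, smul_inv_smul]
  obtain ⟨⟨q, hq⟩, hqe, _⟩ := Q_regular hS h1 h2
  have hqe' : q • g₀⁻¹ • e = g₀⁻¹ • e' := hqe
  refine ⟨g₀ * q * g₀⁻¹, ?_, ?_, ?_⟩
  · rw [Subgroup.mem_centralizer_iff]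
    intro x hx
    have hx' : g₀⁻¹ * x * g₀ ∈ stabilizer G a := by
      rw [mem_stabilizer_iff, mul_smul, mul_smul, hg₀, hXp x hx, ← hg₀, inv_smul_smul]
    have h3 : (g₀⁻¹ * x * g₀) • g₀⁻¹ • e = g₀⁻¹ • e := by
      rw [mul_smul, mul_smul, smul_inv_smul, hXe x hx]
    have h4 : (g₀⁻¹ * x * g₀) • q • g₀⁻¹ • e = q • g₀⁻¹ • e := by
      rw [hqe', mul_smul, mul_smul, smul_inv_smul, hXe' x hx]
    have h5 := Q_comm hS hx' hq h1 h3 h4
    calc x * (g₀ * q * g₀⁻¹) = g₀ * ((g₀⁻¹ * x * g₀) * q) * g₀⁻¹ := by group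
      _ = g₀ * (q * (g₀⁻¹ * x * g₀)) * g₀⁻¹ := by rw [h5]
      _ = g₀ * q * g₀⁻¹ * x := by group
  · rw [mul_smul, mul_smul, ← hg₀, inv_smul_smul, mem_stabilizer_iff.mp (hS.le hq)]
  · rw [mul_smul, mul_smul, hqe', smul_inv_smul]

theorem cent_smul_fix (X : Set G) {g : G} (hg : g ∈ Subgroup.centralizer X) {e : Ω}
    (hXe : ∀ x ∈ X, x • e = e) : ∀ x ∈ X, x • g • e = g • e := by
  intro x hx
  rw [Subgroup.mem_centralizer_iff] at hg
  rw [← mul_smul, hg x hx, mul_smul, hXe x hx]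

theorem cent_two_trans (hS : Cfsg.IsRankOneSetup G Ω a t Q) (X : Set G)
    (h3 : ∃ b c d : Ω, b ≠ c ∧ b ≠ d ∧ c ≠ d ∧ ∀ x ∈ X, x • b = b ∧ x • c = c ∧ x • d = d)
    (b₁ b₂ c₁ c₂ : Ω) (hb₁ : ∀ x ∈ X, x • b₁ = b₁) (hb₂ : ∀ x ∈ X, x • b₂ = b₂)
    (hc₁ : ∀ x ∈ X, x • c₁ = c₁) (hc₂ : ∀ x ∈ X, x • c₂ = c₂) (hb : b₁ ≠ b₂) (hc : c₁ ≠ c₂) :
    ∃ g ∈ Subgroup.centralizer X, g • b₁ = c₁ ∧ g • b₂ = c₂ := by
  have step1 : ∃ g₁ ∈ Subgroup.centralizer X, g₁ • b₁ = c₁ := by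
    by_cases h : b₁ = c₁
    · exact ⟨1, Subgroup.one_mem _, by rw [one_smul, h]⟩
    · obtain ⟨b, c, d, hbc, hbd, hcd, hfix⟩ := h3
      have : ∃ p : Ω, p ≠ b₁ ∧ p ≠ c₁ ∧ ∀ x ∈ X, x • p = p := by
        by_cases hb1 : b = b₁ ∨ b = c₁
        · by_cases hc1 : c = b₁ ∨ c = c₁
          · refine ⟨d, ?_, ?_, fun x hx => (hfix x hx).2.2⟩
            · rintro rfl
              rcases hb1 with h1 | h1
              · exact hbd h1
              · rcases hc1 with h2 | h2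
                · exact hcd h2
                · exact hbc (h1.trans h2.symm)
            · rintro rfl
              rcases hb1 with h1 | h1
              · rcases hc1 with h2 | h2
                · exact hbc (h1.trans h2.symm)
                · exact hcd h2
              · exact hbd h1
          · push Not at hc1
            exact ⟨c, hc1.1, hc1.2, fun x hx => (hfix x hx).2.1⟩
        · push Not at hb1
          exact ⟨b, hb1.1, hb1.2, fun x hx => (hfix x hx).1⟩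
      obtain ⟨p, hp1, hp2, hXp⟩ := this
      obtain ⟨g, hg, _, hg2⟩ := exists_cent_stab hS X hXp (Ne.symm hp1) (Ne.symm hp2) hb₁ hc₁
      exact ⟨g, hg, hg2⟩
  obtain ⟨g₁, hg₁, hg₁b⟩ := step1
  have h4 : g₁ • b₂ ≠ c₁ := by
    intro h
    rw [← hg₁b] at h
    exact hb (smul_left_cancel g₁ h).symm
  obtain ⟨g₂, hg₂, hg₂c, hg₂b⟩ := exists_cent_stab hS X hc₁ h4 (Ne.symm hc)
    (cent_smul_fix X hg₁ hb₂) hc₂
  refine ⟨g₂ * g₁, Subgroup.mul_mem _ hg₂ hg₁, ?_, ?_⟩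
  · rw [mul_smul, hg₁b, hg₂c]
  · rw [mul_smul, hg₂b]

theorem pow_swap {g : G} {c d : Ω} (h1 : g • c = d) (h2 : g • d = c) (j : ℕ) :
    g ^ (2 * j + 1) • c = d ∧ g ^ (2 * j + 1) • d = c := by
  have h3 : ∀ j : ℕ, g ^ (2 * j) • c = c ∧ g ^ (2 * j) • d = d := by
    intro j
    induction j with
    | zero => simp
    | succ j ih =>
      have e : g ^ (2 * (j + 1)) = g ^ (2 * j) * (g * g) := by
        rw [mul_add, pow_add, mul_one, pow_two]
      rw [e, mul_smul, mul_smul, mul_smul, mul_smul, h1, h2, h1]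
      exact ih
  rw [pow_succ, mul_smul, mul_smul, h1, h2]
  exact ⟨(h3 j).2, (h3 j).1⟩

theorem D_eq_one_of_two_pow [Finite G] (hS : Cfsg.IsRankOneSetup G Ω a t Q) {d : G}
    (hd : d ∈ stabilizer G a ⊓ stabilizer G (t • a)) {e : ℕ} (hde : d ^ (2 ^ e) = 1) : d = 1 := by
  have h1 : orderOf d ∣ 2 ^ e := orderOf_dvd_of_pow_eq_one hde
  have h2 : orderOf d ∣ Nat.card ↥(stabilizer G a ⊓ stabilizer G (t • a)) := by
    have := orderOf_dvd_natCard (⟨d, hd⟩ : ↥(stabilizer G a ⊓ stabilizer G (t • a)))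
    rwa [← Subgroup.orderOf_coe] at this
  have h3 : Nat.Coprime (2 ^ e) (Nat.card ↥(stabilizer G a ⊓ stabilizer G (t • a))) :=
    Nat.Coprime.pow_left e (Nat.coprime_two_left.mpr hS.odd_card)
  have h4 := Nat.dvd_gcd h1 h2
  rw [Nat.Coprime.gcd_eq_one h3, Nat.dvd_one] at h4
  exact orderOf_eq_one_iff.mp h4

theorem exists_invol_swap [Finite G] (hS : Cfsg.IsRankOneSetup G Ω a t Q) (X : Set G) {g : G}
    (hg : g ∈ Subgroup.centralizer X) (h1 : g • a = t • a) (h2 : g • t • a = a) :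
    ∃ w ∈ Subgroup.centralizer X, w * w = 1 ∧ w • a = t • a := by
  have ho : orderOf g ≠ 0 := (orderOf_pos g).ne'
  obtain ⟨e, m, hm, hem⟩ := Nat.exists_eq_two_pow_mul_odd ho
  obtain ⟨j, rfl⟩ := hm
  obtain ⟨h3, h4⟩ := pow_swap h1 h2 j
  refine ⟨g ^ (2 * j + 1), Subgroup.pow_mem _ hg _, ?_, h3⟩
  apply D_eq_one_of_two_pow hS (e := e)
  · refine Subgroup.mem_inf.mpr ⟨?_, ?_⟩
    · rw [mem_stabilizer_iff, mul_smul, h3, h4]
    · rw [mem_stabilizer_iff, mul_smul, h4, h3]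
  · have e1 : (2 * j + 1) * (2 * 2 ^ e) = orderOf g * 2 := by rw [hem]; ring
    rw [← pow_two, ← pow_mul, ← pow_mul, e1, pow_mul, pow_orderOf_eq_one, one_pow]

theorem exists_K_conj [Finite G] (hS : Cfsg.IsRankOneSetup G Ω a t Q) {w : G} (hww : w * w = 1)
    (hwa : w • a = t • a) :
    ∃ e ∈ Cfsg.invertedBy (stabilizer G a ⊓ stabilizer G (t • a)) t, e * t * e⁻¹ = w := by
  have hwb : w • t • a = a := by rw [← hwa, smul_smul, hww, one_smul]
  have htw : t * w ∈ stabilizer G a ⊓ stabilizer G (t • a) := by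
    refine Subgroup.mem_inf.mpr ⟨?_, ?_⟩
    · rw [mem_stabilizer_iff, mul_smul, hwa, tta hS]
    · rw [mem_stabilizer_iff, mul_smul, hwb]
  have hodd : Odd (orderOf (t * w)) := by
    have h1 := orderOf_dvd_natCard (⟨t * w, htw⟩ : ↥(stabilizer G a ⊓ stabilizer G (t • a)))
    rw [← Subgroup.orderOf_coe] at h1
    exact Odd.of_dvd_nat hS.odd_card h1
  obtain ⟨m, hm⟩ := hodd
  refine ⟨(t * w) ^ m, ⟨Subgroup.pow_mem _ htw m, ?_⟩, pow_conj_of_odd hS.mul_self hww hm⟩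
  rw [tinv hS]
  exact conj_pow_inverted hS.mul_self (left_inverts hS.mul_self hww) m

end Cfsg.Agent.Lib.Helper8.R1Fix
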