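import Mathlib
import Cfsg.Prelude.Def_RootSubgroups

set_option autoImplicit false

namespace Cfsg.Agent.Lib.Helper8.RootPair

open Cfsg
open scoped commutatorElement

variable {G : Type*} [Group G]

theorem cha (g a : G) : (MulAut.conj g).toMonoidHom a = g * a * g⁻¹ := rfl

theorem mem_cb {A : Subgroup G} {g x : G} : x ∈ conjBy A g ↔ g⁻¹ * x * g ∈ A := by
  show x ∈ Subgroup.map (MulAut.conj g).toMonoidHom A ↔ _
  rw [Subgroup.mem_map]
  constructor
  · rintro ⟨a, ha, rfl⟩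
    rw [cha]
    have h : g⁻¹ * (g * a * g⁻¹) * g = a := by group
    rw [h]; exact ha
  · intro h
    refine ⟨g⁻¹ * x * g, h, ?_⟩
    rw [cha]; group

theorem cb_cb (A : Subgroup G) (g h : G) : conjBy (conjBy A g) h = conjBy A (h * g) := by
  ext x
  rw [mem_cb, mem_cb, mem_cb]
  have e : g⁻¹ * (h⁻¹ * x * h) * g = (h * g)⁻¹ * x * (h * g) := by group
  rw [e]

theorem cb_one (A : Subgroup G) : conjBy A 1 = A := by
  ext x; rw [mem_cb]; simp

theorem cb_mem {A : Subgroup G} {g : G} (hg : g ∈ A) : conjBy A g = A := by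
  ext x; rw [mem_cb]
  constructor
  · intro h
    have e : x = g * (g⁻¹ * x * g) * g⁻¹ := by group
    rw [e]; exact A.mul_mem (A.mul_mem hg h) (A.inv_mem hg)
  · intro h; exact A.mul_mem (A.mul_mem (A.inv_mem hg) h) hg

theorem cb_norm {C : Subgroup G} {g : G} (h : ∀ c ∈ C, g * c * g⁻¹ ∈ C)
    (h' : ∀ c ∈ C, g⁻¹ * c * g ∈ C) : conjBy C g = C := by
  ext x; rw [mem_cb]
  constructor
  · intro hx
    have e : x = g * (g⁻¹ * x * g) * g⁻¹ := by group
    rw [e]; exact h _ hx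
  · intro hx; exact h' x hx

theorem cb_cent {A : Subgroup G} {g : G} (hg : ∀ a ∈ A, g * a = a * g) : conjBy A g = A := by
  apply cb_norm
  · intro c hc
    have e : g * c * g⁻¹ = c := by rw [hg c hc]; group
    rw [e]; exact hc
  · intro c hc
    have e : g⁻¹ * c * g = c := by rw [mul_assoc, ← hg c hc]; group
    rw [e]; exact hc

theorem sup_ind {P Q : Subgroup G} {pr : G → Prop} (h1 : pr 1)
    (hP : ∀ x ∈ P, pr x) (hQ : ∀ x ∈ Q, pr x)
    (hmul : ∀ x y, pr x → pr y → pr (x * y)) (hinv : ∀ x, pr x → pr x⁻¹) :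
    ∀ x ∈ P ⊔ Q, pr x := by
  let K : Subgroup G :=
    { carrier := {x | pr x}
      mul_mem' := fun {a b} ha hb => hmul a b ha hb
      one_mem' := h1
      inv_mem' := fun {a} ha => hinv a ha }
  have hle : P ⊔ Q ≤ K := sup_le (fun x hx => hP x hx) (fun x hx => hQ x hx)
  intro x hx
  exact hle hx

theorem clos_ind {k : Set G} {pr : G → Prop} (h1 : pr 1) (hk : ∀ x ∈ k, pr x)
    (hmul : ∀ x y, pr x → pr y → pr (x * y)) (hinv : ∀ x, pr x → pr x⁻¹) :
    ∀ x ∈ Subgroup.closure k, pr x := by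
  let K : Subgroup G :=
    { carrier := {x | pr x}
      mul_mem' := fun {a b} ha hb => hmul a b ha hb
      one_mem' := h1
      inv_mem' := fun {a} ha => hinv a ha }
  have hle : Subgroup.closure k ≤ K := (Subgroup.closure_le K).2 (fun x hx => hk x hx)
  intro x hx
  exact hle hx

theorem ex_ne_one {A : Subgroup G} (h : A ≠ ⊥) : ∃ a ∈ A, a ≠ 1 := by
  by_contra hcon
  push Not at hcon
  exact h ((Subgroup.eq_bot_iff_forall A).2 hcon)

theorem comm_of {A : Subgroup G} (h : IsMulCommutative A) : ∀ x ∈ A, ∀ y ∈ A, x * y = y * x := by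
  intro x hx y hy
  have := h.is_comm.comm (⟨x, hx⟩ : A) ⟨y, hy⟩
  exact congrArg Subtype.val this

theorem comm_of_bot {P Q : Subgroup G} (h : ⁅P, Q⁆ = ⊥) : ∀ p ∈ P, ∀ q ∈ Q, p * q = q * p := by
  intro p hp q hq
  have h1 : ⁅p, q⁆ ∈ ⁅P, Q⁆ := Subgroup.commutator_mem_commutator hp hq
  rw [h, Subgroup.mem_bot] at h1
  exact (commutatorElement_eq_one_iff_commute.1 h1).eq

theorem bot_of_comm {P Q : Subgroup G} (h : ∀ p ∈ P, ∀ q ∈ Q, p * q = q * p) : ⁅P, Q⁆ = ⊥ := by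
  rw [Subgroup.commutator_eq_bot_iff_le_centralizer]
  intro p hp
  rw [Subgroup.mem_centralizer_iff]
  intro q hq
  exact (h p hp q hq).symm

theorem comm_conj_left {P Q : Subgroup G} {p : G} (hp : p ∈ P) :
    ∀ c ∈ ⁅P, Q⁆, p * c * p⁻¹ ∈ ⁅P, Q⁆ := by
  intro c hc
  rw [Subgroup.commutator_def] at hc
  refine clos_ind (pr := fun c => p * c * p⁻¹ ∈ ⁅P, Q⁆) (by simp) ?_ ?_ ?_ c hc
  · rintro x ⟨g₁, hg₁, g₂, hg₂, rfl⟩
    have e : p * ⁅g₁, g₂⁆ * p⁻¹ = ⁅p * g₁, g₂⁆ * ⁅p, g₂⁆⁻¹ := by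
      simp only [commutatorElement_def]; group
    show p * ⁅g₁, g₂⁆ * p⁻¹ ∈ ⁅P, Q⁆
    rw [e]
    exact Subgroup.mul_mem _ (Subgroup.commutator_mem_commutator (P.mul_mem hp hg₁) hg₂)
      (Subgroup.inv_mem _ (Subgroup.commutator_mem_commutator hp hg₂))
  · intro x y hx hy
    have e : p * (x * y) * p⁻¹ = (p * x * p⁻¹) * (p * y * p⁻¹) := by group
    show p * (x * y) * p⁻¹ ∈ ⁅P, Q⁆
    rw [e]; exact Subgroup.mul_mem _ hx hy
  · intro x hx
    have e : p * x⁻¹ * p⁻¹ = (p * x * p⁻¹)⁻¹ := by group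
    show p * x⁻¹ * p⁻¹ ∈ ⁅P, Q⁆
    rw [e]; exact Subgroup.inv_mem _ hx

/-- If the commutator of two members is a member, the pair is in the commutator case. -/
theorem comm_case_of_mem {S : Set (Subgroup G)} (hS : IsRootSubgroupSet S) {P Q : Subgroup G}
    (hP : P ∈ S) (hQ : Q ∈ S) (hC : ⁅P, Q⁆ ∈ S) : RootCommutatorCase S P Q := by
  rcases hS.pair P hP Q hQ with h | h | h
  · exact absurd h (hS.ne_bot _ hC)
  · exfalso
    have hPab := comm_of (hS.commutative P hP)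
    obtain ⟨a, ha, ha1⟩ := ex_ne_one (hS.ne_bot P hP)
    obtain ⟨b, hb, hb1, hab⟩ := h.cond_left a ha ha1
    have hq : ∀ q ∈ Q, ∃ p ∈ P, q = a * (b⁻¹ * p * b) * a⁻¹ := by
      intro q hq
      have h1 : a⁻¹ * q * a ∈ conjBy Q a⁻¹ := by
        rw [mem_cb]
        have e : (a⁻¹)⁻¹ * (a⁻¹ * q * a) * a⁻¹ = q := by group
        rw [e]; exact hq
      rw [← hab, mem_cb] at h1
      refine ⟨_, h1, ?_⟩
      group
    have hq' : ∀ q ∈ Q, ∃ p ∈ P, ∃ c ∈ ⁅P, Q⁆, q = a * (c * p) * a⁻¹ := by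
      intro q hq0
      obtain ⟨p, hp, rfl⟩ := hq q hq0
      refine ⟨p, hp, b⁻¹ * p * b * p⁻¹, ?_, by group⟩
      have h1 : ⁅b⁻¹, p⁆ ∈ ⁅Q, P⁆ := Subgroup.commutator_mem_commutator (Q.inv_mem hb) hp
      rw [Subgroup.commutator_comm, commutatorElement_def] at h1
      simpa using h1
    have hbot : ⁅P, Q⁆ ≠ ⊥ := hS.ne_bot _ hC
    rcases hS.pair P hP ⁅P, Q⁆ hC with h2 | h2 | h2
    · -- P commutes with C
      apply hbot
      apply bot_of_comm
      intro p' hp' q hq0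
      obtain ⟨p, hp, c, hc, rfl⟩ := hq' q hq0
      have k1 : Commute p' a := hPab p' hp' a ha
      have k2 : Commute p' c := comm_of_bot h2 p' hp' c hc
      have k3 : Commute p' p := hPab p' hp' p hp
      exact ((k1.mul_right (k2.mul_right k3)).mul_right k1.inv_right).eq
    · obtain ⟨c₀, hc₀, hc₀1⟩ := ex_ne_one hbot
      obtain ⟨a', ha', _, hcc⟩ := h2.cond_right c₀ hc₀ hc₀1
      have e1 : conjBy ⁅P, Q⁆ a'⁻¹ = ⁅P, Q⁆ := by
        apply cb_norm
        · intro c hc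
          exact comm_conj_left (P.inv_mem ha') c hc
        · intro c hc
          have := comm_conj_left (Q := Q) ha' c hc
          simpa using this
      rw [e1] at hcc
      have e2 : conjBy (conjBy P c₀⁻¹) c₀ = P := by
        rw [cb_cb]; simp [cb_one]
      rw [← hcc, cb_mem hc₀] at e2
      exact h2.ne e2.symm
    · obtain ⟨_, hcen, _, _⟩ := h2
      have hQle : Q ≤ P ⊔ ⁅P, Q⁆ := by
        intro q hq0
        obtain ⟨p, hp, c, hc, rfl⟩ := hq' q hq0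
        exact Subgroup.mul_mem _ (Subgroup.mul_mem _ (Subgroup.mem_sup_left ha)
          (Subgroup.mul_mem _ (Subgroup.mem_sup_right hc) (Subgroup.mem_sup_left hp)))
          (Subgroup.inv_mem _ (Subgroup.mem_sup_left ha))
      have key : ∀ g ∈ P ⊔ ⁅P, Q⁆, g ∈ P ⊔ ⁅P, Q⁆ ∧
          ∀ p ∈ P, g * p * g⁻¹ * p⁻¹ ∈ ⁅P, ⁅P, Q⁆⁆ := by
        apply sup_ind
        · exact ⟨Subgroup.one_mem _, fun p _ => by simp⟩
        · intro x hx
          refine ⟨Subgroup.mem_sup_left hx, fun p hp => ?_⟩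
          have e : x * p * x⁻¹ * p⁻¹ = 1 := by rw [hPab x hx p hp]; group
          rw [e]; exact Subgroup.one_mem _
        · intro x hx
          refine ⟨Subgroup.mem_sup_right hx, fun p hp => ?_⟩
          have h1 : ⁅x, p⁆ ∈ ⁅⁅P, Q⁆, P⁆ := Subgroup.commutator_mem_commutator hx hp
          rw [Subgroup.commutator_comm, commutatorElement_def] at h1
          exact h1
        · rintro x y ⟨hx, hx2⟩ ⟨hy, hy2⟩
          refine ⟨Subgroup.mul_mem _ hx hy, fun p hp => ?_⟩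
          have e : x * y * p * (x * y)⁻¹ * p⁻¹
              = x * (y * p * y⁻¹ * p⁻¹) * x⁻¹ * (x * p * x⁻¹ * p⁻¹) := by group
          have e2 : x * (y * p * y⁻¹ * p⁻¹) * x⁻¹ = y * p * y⁻¹ * p⁻¹ := by
            rw [← hcen _ (hy2 p hp) x hx]; group
          rw [e, e2]
          exact Subgroup.mul_mem _ (hy2 p hp) (hx2 p hp)
        · rintro x ⟨hx, hx2⟩
          refine ⟨Subgroup.inv_mem _ hx, fun p hp => ?_⟩
          have hz := Subgroup.inv_mem _ (hx2 p hp)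
          have e : x⁻¹ * p * x⁻¹⁻¹ * p⁻¹ = x⁻¹ * (x * p * x⁻¹ * p⁻¹)⁻¹ * x := by group
          have e2 : x⁻¹ * (x * p * x⁻¹ * p⁻¹)⁻¹ * x = (x * p * x⁻¹ * p⁻¹)⁻¹ := by
            rw [mul_assoc, hcen _ hz x hx]; group
          rw [e, e2]; exact hz
      apply hbot
      apply bot_of_comm
      intro p' hp' q hq0
      obtain ⟨p, hp, rfl⟩ := hq q hq0
      have hg : a * b⁻¹ ∈ P ⊔ ⁅P, Q⁆ :=
        Subgroup.mul_mem _ (Subgroup.mem_sup_left ha) (Subgroup.inv_mem _ (hQle hb))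
      have hz := (key _ hg).2 p hp
      have e : a * (b⁻¹ * p * b) * a⁻¹ = (a * b⁻¹ * p * (a * b⁻¹)⁻¹ * p⁻¹) * p := by group
      rw [e]
      have k1 : Commute p' (a * b⁻¹ * p * (a * b⁻¹)⁻¹ * p⁻¹) :=
        (hcen _ hz p' (Subgroup.mem_sup_left hp')).symm
      have k3 : Commute p' p := hPab p' hp' p hp
      exact (k1.mul_right k3).eq
  · exact h

theorem conj_pred (T : Subgroup G) (g : G) :
    (g * 1 * g⁻¹ ∈ T) ∧ (∀ x y, g * x * g⁻¹ ∈ T → g * y * g⁻¹ ∈ T → g * (x * y) * g⁻¹ ∈ T) ∧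
    (∀ x, g * x * g⁻¹ ∈ T → g * x⁻¹ * g⁻¹ ∈ T) := by
  refine ⟨by simp, ?_, ?_⟩
  · intro x y hx hy
    have e : g * (x * y) * g⁻¹ = (g * x * g⁻¹) * (g * y * g⁻¹) := by group
    rw [e]; exact T.mul_mem hx hy
  · intro x hx
    have e : g * x⁻¹ * g⁻¹ = (g * x * g⁻¹)⁻¹ := by group
    rw [e]; exact T.inv_mem hx

end Cfsg.Agent.Lib.Helper8.RootPair
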