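import Mathlib
import Cfsg.Prelude.Def_RootSubgroups
import Cfsg.Agent.Lib.Helper8.RootPairA

set_option autoImplicit false

namespace Cfsg.Agent.Lib.Helper8.RootPair

open Cfsg
open scoped commutatorElement

variable {G : Type*} [Group G]

/-- The configuration `C = [A,B]`, `A = [D,C]` in the commutator case, spelled out elementwise. -/
structure Cfg (A B C D : Subgroup G) : Prop where
  Aab : ∀ x ∈ A, ∀ y ∈ A, x * y = y * x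
  AC : ∀ a ∈ A, ∀ c ∈ C, a * c = c * a
  BC : ∀ b ∈ B, ∀ c ∈ C, b * c = c * b
  DA : ∀ d ∈ D, ∀ a ∈ A, d * a = a * d
  comAB : ∀ a ∈ A, ∀ b ∈ B, a * b * a⁻¹ * b⁻¹ ∈ C
  comDC : ∀ d ∈ D, ∀ c ∈ C, d * c * d⁻¹ * c⁻¹ ∈ A
  genB : ∀ a ∈ A, a ≠ 1 →
    Subgroup.closure ((fun b : G => a * b * a⁻¹ * b⁻¹) '' (B : Set G)) = C
  genA : ∀ b ∈ B, b ≠ 1 →
    Subgroup.closure ((fun a : G => a * b * a⁻¹ * b⁻¹) '' (A : Set G)) = C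
  genC : ∀ d ∈ D, d ≠ 1 →
    Subgroup.closure ((fun c : G => d * c * d⁻¹ * c⁻¹) '' (C : Set G)) = A
  neA : A ≠ ⊥
  neB : B ≠ ⊥
  neC : C ≠ ⊥
  neD : D ≠ ⊥

variable {A B C D : Subgroup G}

theorem surjB (h : Cfg A B C D) {a : G} (ha : a ∈ A) (ha1 : a ≠ 1) :
    ∀ c ∈ C, ∃ b ∈ B, a * b * a⁻¹ * b⁻¹ = c := by
  intro c hc
  rw [← h.genB a ha ha1] at hc
  refine clos_ind (pr := fun c => ∃ b ∈ B, a * b * a⁻¹ * b⁻¹ = c)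
    ⟨1, B.one_mem, by group⟩ ?_ ?_ ?_ c hc
  · rintro x ⟨b, hb, rfl⟩
    exact ⟨b, hb, rfl⟩
  · rintro x y ⟨b, hb, rfl⟩ ⟨b', hb', rfl⟩
    refine ⟨b * b', B.mul_mem hb hb', ?_⟩
    have hc' := h.comAB a ha b' hb'
    have e : a * (b * b') * a⁻¹ * (b * b')⁻¹
        = a * b * a⁻¹ * ((a * b' * a⁻¹ * b'⁻¹) * b⁻¹) := by group
    have e2 : (a * b' * a⁻¹ * b'⁻¹) * b⁻¹ = b⁻¹ * (a * b' * a⁻¹ * b'⁻¹) :=
      (h.BC b⁻¹ (B.inv_mem hb) _ hc').symm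
    rw [e, e2]; group
  · rintro x ⟨b, hb, rfl⟩
    refine ⟨b⁻¹, B.inv_mem hb, ?_⟩
    have hc' := h.comAB a ha b hb
    have e : a * b⁻¹ * a⁻¹ * b⁻¹⁻¹ = b⁻¹ * (a * b * a⁻¹ * b⁻¹)⁻¹ * b := by group
    have e2 : b⁻¹ * (a * b * a⁻¹ * b⁻¹)⁻¹ = (a * b * a⁻¹ * b⁻¹)⁻¹ * b⁻¹ :=
      h.BC b⁻¹ (B.inv_mem hb) _ (C.inv_mem hc')
    rw [e, e2]; group

theorem surjA (h : Cfg A B C D) {b : G} (hb : b ∈ B) (hb1 : b ≠ 1) :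
    ∀ c ∈ C, ∃ a ∈ A, a * b * a⁻¹ * b⁻¹ = c := by
  intro c hc
  rw [← h.genA b hb hb1] at hc
  refine clos_ind (pr := fun c => ∃ a ∈ A, a * b * a⁻¹ * b⁻¹ = c)
    ⟨1, A.one_mem, by group⟩ ?_ ?_ ?_ c hc
  · rintro x ⟨a, ha, rfl⟩
    exact ⟨a, ha, rfl⟩
  · rintro x y ⟨a, ha, rfl⟩ ⟨a', ha', rfl⟩
    refine ⟨a' * a, A.mul_mem ha' ha, ?_⟩
    have hc' := h.comAB a ha b hb
    have e : a' * a * b * (a' * a)⁻¹ * b⁻¹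
        = (a' * (a * b * a⁻¹ * b⁻¹)) * b * a'⁻¹ * b⁻¹ := by group
    have e2 : a' * (a * b * a⁻¹ * b⁻¹) = (a * b * a⁻¹ * b⁻¹) * a' := h.AC a' ha' _ hc'
    rw [e, e2]; group
  · rintro x ⟨a, ha, rfl⟩
    refine ⟨a⁻¹, A.inv_mem ha, ?_⟩
    have hc' := h.comAB a ha b hb
    have e : a⁻¹ * b * a⁻¹⁻¹ * b⁻¹ = a⁻¹ * (a * b * a⁻¹ * b⁻¹)⁻¹ * a := by group
    have e2 : a⁻¹ * (a * b * a⁻¹ * b⁻¹)⁻¹ = (a * b * a⁻¹ * b⁻¹)⁻¹ * a⁻¹ :=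
      h.AC a⁻¹ (A.inv_mem ha) _ (C.inv_mem hc')
    rw [e, e2]; group

theorem surjC (h : Cfg A B C D) {d : G} (hd : d ∈ D) (hd1 : d ≠ 1) :
    ∀ a ∈ A, ∃ c ∈ C, d * c * d⁻¹ * c⁻¹ = a := by
  intro a ha
  rw [← h.genC d hd hd1] at ha
  refine clos_ind (pr := fun a => ∃ c ∈ C, d * c * d⁻¹ * c⁻¹ = a)
    ⟨1, C.one_mem, by group⟩ ?_ ?_ ?_ a ha
  · rintro x ⟨c, hc, rfl⟩
    exact ⟨c, hc, rfl⟩
  · rintro x y ⟨c, hc, rfl⟩ ⟨c', hc', rfl⟩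
    refine ⟨c * c', C.mul_mem hc hc', ?_⟩
    have ha' := h.comDC d hd c' hc'
    have e : d * (c * c') * d⁻¹ * (c * c')⁻¹
        = d * c * d⁻¹ * ((d * c' * d⁻¹ * c'⁻¹) * c⁻¹) := by group
    have e2 : (d * c' * d⁻¹ * c'⁻¹) * c⁻¹ = c⁻¹ * (d * c' * d⁻¹ * c'⁻¹) :=
      h.AC _ ha' c⁻¹ (C.inv_mem hc)
    rw [e, e2]; group
  · rintro x ⟨c, hc, rfl⟩
    refine ⟨c⁻¹, C.inv_mem hc, ?_⟩
    have ha' := h.comDC d hd c hc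
    have e : d * c⁻¹ * d⁻¹ * c⁻¹⁻¹ = c⁻¹ * ((d * c * d⁻¹ * c⁻¹)⁻¹ * c) := by group
    have e2 : (d * c * d⁻¹ * c⁻¹)⁻¹ * c = c * (d * c * d⁻¹ * c⁻¹)⁻¹ :=
      h.AC _ (A.inv_mem ha') c hc
    rw [e, e2]; group

theorem inter_AC (h : Cfg A B C D) {x : G} (hxA : x ∈ A) (hxC : x ∈ C) : x = 1 := by
  by_contra hx1
  apply h.neC
  rw [← h.genB x hxA hx1, Subgroup.closure_eq_bot_iff]
  rintro y ⟨b, hb, rfl⟩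
  have e := h.BC b hb x hxC
  show x * b * x⁻¹ * b⁻¹ = 1
  rw [← e]; group

theorem no_bot_case (h : Cfg A B C D) (hbd : ∀ b ∈ B, ∀ d ∈ D, b * d = d * b) : False := by
  obtain ⟨b, hb, hb1⟩ := ex_ne_one h.neB
  obtain ⟨d, hd, hd1⟩ := ex_ne_one h.neD
  have hdc : ∀ c ∈ C, d * c = c * d := by
    intro c hc
    rw [← h.genA b hb hb1] at hc
    refine clos_ind (pr := fun c => d * c = c * d) (by simp) ?_ ?_ ?_ c hc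
    · rintro y ⟨a, ha, rfl⟩
      have k1 : Commute d a := h.DA d hd a ha
      have k2 : Commute d b := (hbd b hb d hd).symm
      exact (((k1.mul_right k2).mul_right k1.inv_right).mul_right k2.inv_right).eq
    · intro y z hy hz
      exact ((show Commute d y from hy).mul_right hz).eq
    · intro y hy
      exact (Commute.inv_right (show Commute d y from hy)).eq
  apply h.neA
  rw [← h.genC d hd hd1, Subgroup.closure_eq_bot_iff]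
  rintro y ⟨c, hc, rfl⟩
  show d * c * d⁻¹ * c⁻¹ = 1
  rw [hdc c hc]; group

theorem no_comm_case (h : Cfg A B C D)
    (hE : ∀ b ∈ B, ∀ d ∈ D, ∀ x ∈ B ⊔ D,
      (b * d * b⁻¹ * d⁻¹) * x = x * (b * d * b⁻¹ * d⁻¹)) : False := by
  obtain ⟨b, hb, hb1⟩ := ex_ne_one h.neB
  obtain ⟨d, hd, hd1⟩ := ex_ne_one h.neD
  have hbb : b * (d * b⁻¹ * d⁻¹) = (d * b⁻¹ * d⁻¹) * b := by
    have h1 := hE b hb d hd b (Subgroup.mem_sup_left hb)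
    have h2 : b * ((d * b⁻¹ * d⁻¹) * b) = b * (b * (d * b⁻¹ * d⁻¹)) := by
      have e1 : b * ((d * b⁻¹ * d⁻¹) * b) = b * d * b⁻¹ * d⁻¹ * b := by group
      have e2 : b * (b * (d * b⁻¹ * d⁻¹)) = b * (b * d * b⁻¹ * d⁻¹) := by group
      rw [e1, e2]; exact h1
    exact (mul_left_cancel h2).symm
  have hbi1 : b⁻¹ ≠ 1 := by simpa using hb1
  have hdi1 : d⁻¹ ≠ 1 := by simpa using hd1
  have hall : ∀ a ∈ A, b * a = a * b := by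
    intro a ha
    obtain ⟨c₁, hc₁, rfl⟩ := surjC h hd hd1 a ha
    obtain ⟨x, hx, hxc⟩ := surjA h (B.inv_mem hb) hbi1 c₁ hc₁
    obtain ⟨c, hc, hca⟩ := surjC h (D.inv_mem hd) hdi1 x⁻¹ (A.inv_mem hx)
    have hxi := A.inv_mem hx
    have E1 : d⁻¹ * c * d = x⁻¹ * c := by rw [← hca]; group
    have E2 : b⁻¹ * x⁻¹ * b = x⁻¹ * c₁ := by rw [← hxc]; group
    have E3 : b⁻¹ * c * b = c := by rw [mul_assoc, ← h.BC b hb c hc]; group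
    have E4 : d * x⁻¹ * d⁻¹ = x⁻¹ := by rw [h.DA d hd x⁻¹ hxi]; group
    have hx' : x⁻¹ = c * d * c⁻¹ * d⁻¹ := by
      have h4 := E4
      rw [← hca] at h4
      calc x⁻¹ = d⁻¹ * c * d⁻¹⁻¹ * c⁻¹ := hca.symm
        _ = d * (d⁻¹ * c * d⁻¹⁻¹ * c⁻¹) * d⁻¹ := h4.symm
        _ = c * d * c⁻¹ * d⁻¹ := by group
    have E5 : d * c * d⁻¹ = x * c := by
      calc d * c * d⁻¹ = (c * d * c⁻¹ * d⁻¹)⁻¹ * c := by group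
        _ = x⁻¹⁻¹ * c := by rw [hx']
        _ = x * c := by rw [inv_inv]
    have hamem := h.comDC d hd c₁ hc₁
    have k1 : Commute x⁻¹ (d * c₁ * d⁻¹ * c₁⁻¹) := h.Aab _ hxi _ hamem
    have k2 : Commute x⁻¹ c₁ := h.AC _ hxi c₁ hc₁
    have k : x⁻¹ * ((d * c₁ * d⁻¹ * c₁⁻¹) * c₁) = ((d * c₁ * d⁻¹ * c₁⁻¹) * c₁) * x⁻¹ :=
      (k1.mul_right k2).eq
    have hn : (d * b⁻¹ * d⁻¹) * c * (d * b⁻¹ * d⁻¹)⁻¹ = (d * c₁ * d⁻¹ * c₁⁻¹) * c₁ * c := by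
      calc (d * b⁻¹ * d⁻¹) * c * (d * b⁻¹ * d⁻¹)⁻¹
          = d * (b⁻¹ * (d⁻¹ * c * d) * b) * d⁻¹ := by group
        _ = d * (b⁻¹ * (x⁻¹ * c) * b) * d⁻¹ := by rw [E1]
        _ = d * ((b⁻¹ * x⁻¹ * b) * (b⁻¹ * c * b)) * d⁻¹ := by group
        _ = d * ((x⁻¹ * c₁) * c) * d⁻¹ := by rw [E2, E3]
        _ = (d * x⁻¹ * d⁻¹) * (d * c₁ * d⁻¹) * (d * c * d⁻¹) := by group
        _ = x⁻¹ * (d * c₁ * d⁻¹) * (x * c) := by rw [E4, E5]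
        _ = x⁻¹ * ((d * c₁ * d⁻¹ * c₁⁻¹) * c₁) * (x * c) := by group
        _ = ((d * c₁ * d⁻¹ * c₁⁻¹) * c₁) * x⁻¹ * (x * c) := by rw [k]
        _ = (d * c₁ * d⁻¹ * c₁⁻¹) * c₁ * c := by group
    have kb1 : Commute b (d * b⁻¹ * d⁻¹) := hbb
    have kb2 : Commute b c := h.BC b hb c hc
    have kn : Commute b ((d * b⁻¹ * d⁻¹) * c * (d * b⁻¹ * d⁻¹)⁻¹) :=
      (kb1.mul_right kb2).mul_right kb1.inv_right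
    rw [hn] at kn
    have kc : Commute b (c₁ * c) := (show Commute b c₁ from h.BC b hb c₁ hc₁).mul_right kb2
    have ka : Commute b ((d * c₁ * d⁻¹ * c₁⁻¹) * c₁ * c * (c₁ * c)⁻¹) := kn.mul_right kc.inv_right
    have e : (d * c₁ * d⁻¹ * c₁⁻¹) * c₁ * c * (c₁ * c)⁻¹ = d * c₁ * d⁻¹ * c₁⁻¹ := by group
    rw [e] at ka
    exact ka.eq
  apply h.neC
  rw [← h.genA b hb hb1, Subgroup.closure_eq_bot_iff]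
  rintro y ⟨a, ha, rfl⟩
  show a * b * a⁻¹ * b⁻¹ = 1
  rw [← hall a ha]; group

theorem key_eq (h : Cfg A B C D) {b d : G} (hb : b ∈ B) (hb1 : b ≠ 1)
    (hd : d ∈ D) (hd1 : d ≠ 1) (hbd : conjBy B d⁻¹ = conjBy D b⁻¹) :
    conjBy A b⁻¹ = conjBy C d⁻¹ := by
  -- f1 : b⁻¹ d b = d⁻¹ b₁ d
  obtain ⟨b₁, hb₁, f1⟩ : ∃ b₁ ∈ B, b⁻¹ * d * b = d⁻¹ * b₁ * d := by
    have h1 : b⁻¹ * d * b ∈ conjBy D b⁻¹ := by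
      rw [mem_cb]
      have e : (b⁻¹)⁻¹ * (b⁻¹ * d * b) * b⁻¹ = d := by group
      rw [e]; exact hd
    rw [← hbd, mem_cb] at h1
    exact ⟨_, h1, by group⟩
  obtain ⟨d₁, hd₁, f2⟩ : ∃ d₁ ∈ D, d⁻¹ * b * d = b⁻¹ * d₁ * b := by
    have h1 : d⁻¹ * b * d ∈ conjBy B d⁻¹ := by
      rw [mem_cb]
      have e : (d⁻¹)⁻¹ * (d⁻¹ * b * d) * d⁻¹ = b := by group
      rw [e]; exact hb
    rw [hbd, mem_cb] at h1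
    exact ⟨_, h1, by group⟩
  have I1 : ∀ a ∈ A, (d * b⁻¹) * a * (d * b⁻¹)⁻¹ ∈ C := by
    intro a ha
    rw [← h.genC d hd hd1] at ha
    obtain ⟨p1, pm, pi⟩ := conj_pred C (d * b⁻¹)
    refine clos_ind (pr := fun a => (d * b⁻¹) * a * (d * b⁻¹)⁻¹ ∈ C) p1 ?_ pm pi a ha
    rintro y ⟨c, hc, rfl⟩
    show (d * b⁻¹) * (d * c * d⁻¹ * c⁻¹) * (d * b⁻¹)⁻¹ ∈ C
    have E3 : b⁻¹ * c * b = c := by rw [mul_assoc, ← h.BC b hb c hc]; group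
    have ha' := h.comDC d hd c hc
    have hcb : c * b₁⁻¹ = b₁⁻¹ * c := (h.BC b₁⁻¹ (B.inv_mem hb₁) c hc).symm
    have e : (d * b⁻¹) * (d * c * d⁻¹ * c⁻¹) * (d * b⁻¹)⁻¹
        = ((d * c * d⁻¹ * c⁻¹) * b₁ * (d * c * d⁻¹ * c⁻¹)⁻¹ * b₁⁻¹)⁻¹ := by
      calc (d * b⁻¹) * (d * c * d⁻¹ * c⁻¹) * (d * b⁻¹)⁻¹
          = d * ((b⁻¹ * d * b) * (b⁻¹ * c * b) * (b⁻¹ * d * b)⁻¹ * (b⁻¹ * c * b)⁻¹) * d⁻¹ := by
            group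
        _ = d * ((d⁻¹ * b₁ * d) * c * (d⁻¹ * b₁ * d)⁻¹ * c⁻¹) * d⁻¹ := by rw [E3, f1]
        _ = b₁ * (d * c * d⁻¹ * c⁻¹) * (c * b₁⁻¹) * c⁻¹ * (d * c * d⁻¹ * c⁻¹)⁻¹ := by group
        _ = b₁ * (d * c * d⁻¹ * c⁻¹) * (b₁⁻¹ * c) * c⁻¹ * (d * c * d⁻¹ * c⁻¹)⁻¹ := by rw [hcb]
        _ = ((d * c * d⁻¹ * c⁻¹) * b₁ * (d * c * d⁻¹ * c⁻¹)⁻¹ * b₁⁻¹)⁻¹ := by group
    rw [e]
    exact C.inv_mem (h.comAB _ ha' b₁ hb₁)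
  have I2 : ∀ c ∈ C, (b * d⁻¹) * c * (b * d⁻¹)⁻¹ ∈ A := by
    intro c hc
    rw [← h.genA b hb hb1] at hc
    obtain ⟨p1, pm, pi⟩ := conj_pred A (b * d⁻¹)
    refine clos_ind (pr := fun c => (b * d⁻¹) * c * (b * d⁻¹)⁻¹ ∈ A) p1 ?_ pm pi c hc
    rintro y ⟨a, ha, rfl⟩
    show (b * d⁻¹) * (a * b * a⁻¹ * b⁻¹) * (b * d⁻¹)⁻¹ ∈ A
    have E : d⁻¹ * a * d = a := by rw [mul_assoc, ← h.DA d hd a ha]; group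
    have hc' : b * a * b⁻¹ * a⁻¹ ∈ C := by
      have e : b * a * b⁻¹ * a⁻¹ = (a * b * a⁻¹ * b⁻¹)⁻¹ := by group
      rw [e]; exact C.inv_mem (h.comAB a ha b hb)
    have had : a * d₁ = d₁ * a := (h.DA d₁ hd₁ a ha).symm
    have e : (b * d⁻¹) * (a * b * a⁻¹ * b⁻¹) * (b * d⁻¹)⁻¹
        = (d₁ * (b * a * b⁻¹ * a⁻¹) * d₁⁻¹ * (b * a * b⁻¹ * a⁻¹)⁻¹)⁻¹ := by
      calc (b * d⁻¹) * (a * b * a⁻¹ * b⁻¹) * (b * d⁻¹)⁻¹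
          = b * ((d⁻¹ * a * d) * (d⁻¹ * b * d) * (d⁻¹ * a * d)⁻¹ * (d⁻¹ * b * d)⁻¹) * b⁻¹ := by
            group
        _ = b * (a * (b⁻¹ * d₁ * b) * a⁻¹ * (b⁻¹ * d₁ * b)⁻¹) * b⁻¹ := by rw [E, f2]
        _ = (b * a * b⁻¹ * a⁻¹) * (a * d₁) * a⁻¹ * (b * a * b⁻¹ * a⁻¹)⁻¹ * d₁⁻¹ := by group
        _ = (b * a * b⁻¹ * a⁻¹) * (d₁ * a) * a⁻¹ * (b * a * b⁻¹ * a⁻¹)⁻¹ * d₁⁻¹ := by rw [had]
        _ = (d₁ * (b * a * b⁻¹ * a⁻¹) * d₁⁻¹ * (b * a * b⁻¹ * a⁻¹)⁻¹)⁻¹ := by group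
    rw [e]
    exact A.inv_mem (h.comDC d₁ hd₁ _ hc')
  ext x
  rw [mem_cb, mem_cb, inv_inv, inv_inv]
  constructor
  · intro hx
    have e : d * x * d⁻¹ = (d * b⁻¹) * (b * x * b⁻¹) * (d * b⁻¹)⁻¹ := by group
    rw [e]; exact I1 _ hx
  · intro hx
    have e : b * x * b⁻¹ = (b * d⁻¹) * (d * x * d⁻¹) * (b * d⁻¹)⁻¹ := by group
    rw [e]; exact I2 _ hx

theorem inj_b (h : Cfg A B C D) (hr : IsRankOnePair B D) {b : G} (hb : b ∈ B) (hb1 : b ≠ 1)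
    {a : G} (ha : a ∈ A) (hab : a * b = b * a) : a = 1 := by
  obtain ⟨d, hd, hd1, hbd⟩ := hr.cond_left b hb hb1
  have hk := key_eq h hb hb1 hd hd1 hbd
  have h1 : a ∈ conjBy A b⁻¹ := by
    rw [mem_cb]
    have e : (b⁻¹)⁻¹ * a * b⁻¹ = a := by rw [inv_inv, ← hab]; group
    rw [e]; exact ha
  rw [hk, mem_cb] at h1
  have e : (d⁻¹)⁻¹ * a * d⁻¹ = a := by rw [inv_inv, h.DA d hd a ha]; group
  rw [e] at h1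
  exact inter_AC h ha h1

theorem conjA_eq (h : Cfg A B C D) (hr : IsRankOnePair B D) {b : G} (hb : b ∈ B) (hb1 : b ≠ 1) :
    ∃ d ∈ D, conjBy A b = conjBy C d := by
  have hbi1 : b⁻¹ ≠ 1 := by simpa using hb1
  obtain ⟨d, hd, hd1, hbd⟩ := hr.cond_left b⁻¹ (B.inv_mem hb) hbi1
  have hk := key_eq h (B.inv_mem hb) hbi1 hd hd1 hbd
  rw [inv_inv] at hk
  exact ⟨d⁻¹, D.inv_mem hd, hk⟩

theorem conjC_eq (h : Cfg A B C D) (hr : IsRankOnePair B D) {d : G} (hd : d ∈ D) (hd1 : d ≠ 1) :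
    ∃ b ∈ B, conjBy C d = conjBy A b := by
  have hdi1 : d⁻¹ ≠ 1 := by simpa using hd1
  obtain ⟨b, hb, hb1, hbd⟩ := hr.cond_right d⁻¹ (D.inv_mem hd) hdi1
  have hk := key_eq h hb hb1 (D.inv_mem hd) hdi1 hbd.symm
  rw [inv_inv] at hk
  exact ⟨b⁻¹, B.inv_mem hb, hk.symm⟩

end Cfsg.Agent.Lib.Helper8.RootPair
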