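import Mathlib
import Cfsg.Prelude.Def_RootSubgroups
import Cfsg.Agent.Lib.Helper8.RootPairA
import Cfsg.Agent.Lib.Helper8.RootPairB

set_option autoImplicit false

namespace Cfsg.Agent.Lib.Helper8.RootPair

open Cfsg
open scoped commutatorElement

variable {G : Type*} [Group G]

/-- In a rank one pair `(P, Q)`, every conjugate of `P` under `P ⊔ Q` is `P` or a `P`-conjugate of `Q`. -/
theorem orbit_form {P Q : Subgroup G} (hr : IsRankOnePair P Q) :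
    ∀ x ∈ P ⊔ Q, conjBy P x = P ∨ ∃ p ∈ P, conjBy P x = conjBy Q p := by
  have hPstep : ∀ x ∈ P, ∀ E : Subgroup G, (E = P ∨ ∃ p ∈ P, E = conjBy Q p) →
      (conjBy E x = P ∨ ∃ p ∈ P, conjBy E x = conjBy Q p) := by
    rintro x hx E (rfl | ⟨p, hp, rfl⟩)
    · exact Or.inl (cb_mem hx)
    · exact Or.inr ⟨x * p, P.mul_mem hx hp, cb_cb Q p x⟩
  have hQP : ∀ y ∈ Q, (conjBy P y = P ∨ ∃ p ∈ P, conjBy P y = conjBy Q p) := by
    intro y hy
    by_cases hy1 : y = 1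
    · subst hy1; exact Or.inl (cb_one P)
    · have hyi1 : y⁻¹ ≠ 1 := by simpa using hy1
      obtain ⟨p, hp, _, hpe⟩ := hr.cond_right y⁻¹ (Q.inv_mem hy) hyi1
      rw [inv_inv] at hpe
      exact Or.inr ⟨p⁻¹, P.inv_mem hp, hpe.symm⟩
  have hQstep : ∀ x ∈ Q, ∀ E : Subgroup G, (E = P ∨ ∃ p ∈ P, E = conjBy Q p) →
      (conjBy E x = P ∨ ∃ p ∈ P, conjBy E x = conjBy Q p) := by
    rintro x hx E (rfl | ⟨p, hp, rfl⟩)
    · exact hQP x hx
    · by_cases hp1 : p = 1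
      · subst hp1
        refine Or.inr ⟨1, P.one_mem, ?_⟩
        rw [cb_one, cb_mem hx]
      · have hpi1 : p⁻¹ ≠ 1 := by simpa using hp1
        obtain ⟨q, hq, _, hqe⟩ := hr.cond_left p⁻¹ (P.inv_mem hp) hpi1
        rw [inv_inv] at hqe
        rw [← hqe, cb_cb]
        exact hQP (x * q⁻¹) (Q.mul_mem hx (Q.inv_mem hq))
  have key : ∀ x ∈ P ⊔ Q,
      (∀ E : Subgroup G, (E = P ∨ ∃ p ∈ P, E = conjBy Q p) →
        (conjBy E x = P ∨ ∃ p ∈ P, conjBy E x = conjBy Q p)) ∧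
      (∀ E : Subgroup G, (E = P ∨ ∃ p ∈ P, E = conjBy Q p) →
        (conjBy E x⁻¹ = P ∨ ∃ p ∈ P, conjBy E x⁻¹ = conjBy Q p)) := by
    apply sup_ind
    · refine ⟨fun E hE => ?_, fun E hE => ?_⟩
      · rw [cb_one]; exact hE
      · rw [inv_one, cb_one]; exact hE
    · intro x hx
      exact ⟨hPstep x hx, hPstep x⁻¹ (P.inv_mem hx)⟩
    · intro x hx
      exact ⟨hQstep x hx, hQstep x⁻¹ (Q.inv_mem hx)⟩
    · rintro x y ⟨hx1, hx2⟩ ⟨hy1, hy2⟩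
      refine ⟨fun E hE => ?_, fun E hE => ?_⟩
      · rw [← cb_cb]; exact hx1 _ (hy1 E hE)
      · rw [mul_inv_rev, ← cb_cb]; exact hy2 _ (hx2 E hE)
    · rintro x ⟨hx1, hx2⟩
      refine ⟨hx2, fun E hE => ?_⟩
      rw [inv_inv]; exact hx1 E hE
  intro x hx
  exact (key x hx).1 P (Or.inl rfl)

variable {A B C D : Subgroup G}

theorem pm_iff (h : Cfg A B C D) (hr : IsRankOnePair B D) (E : Subgroup G) :
    ((∃ b ∈ B, E = conjBy A b) ∨ E = C) ↔ ((∃ d ∈ D, E = conjBy C d) ∨ E = A) := by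
  constructor
  · rintro (⟨b, hb, rfl⟩ | rfl)
    · by_cases hb1 : b = 1
      · subst hb1; exact Or.inr (cb_one A)
      · obtain ⟨d, hd, he⟩ := conjA_eq h hr hb hb1
        exact Or.inl ⟨d, hd, he⟩
    · exact Or.inl ⟨1, D.one_mem, (cb_one _).symm⟩
  · rintro (⟨d, hd, rfl⟩ | rfl)
    · by_cases hd1 : d = 1
      · subst hd1; exact Or.inr (cb_one C)
      · obtain ⟨b, hb, he⟩ := conjC_eq h hr hd hd1
        exact Or.inl ⟨b, hb, he⟩
    · exact Or.inl ⟨1, B.one_mem, (cb_one _).symm⟩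

theorem pm_inv (h : Cfg A B C D) (hr : IsRankOnePair B D) :
    ∀ x ∈ B ⊔ D, ∀ E : Subgroup G, ((∃ b ∈ B, E = conjBy A b) ∨ E = C) →
      ((∃ b ∈ B, conjBy E x = conjBy A b) ∨ conjBy E x = C) := by
  have hBstep : ∀ x ∈ B, ∀ E : Subgroup G, ((∃ b ∈ B, E = conjBy A b) ∨ E = C) →
      ((∃ b ∈ B, conjBy E x = conjBy A b) ∨ conjBy E x = C) := by
    rintro x hx E (⟨b, hb, rfl⟩ | rfl)
    · exact Or.inl ⟨x * b, B.mul_mem hx hb, cb_cb A b x⟩
    · exact Or.inr (cb_cent (fun c hc => h.BC x hx c hc))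
  have hDstep : ∀ x ∈ D, ∀ E : Subgroup G, ((∃ b ∈ B, E = conjBy A b) ∨ E = C) →
      ((∃ b ∈ B, conjBy E x = conjBy A b) ∨ conjBy E x = C) := by
    intro x hx E hE
    rw [pm_iff h hr] at hE ⊢
    rcases hE with ⟨d, hd, rfl⟩ | rfl
    · exact Or.inl ⟨x * d, D.mul_mem hx hd, cb_cb C d x⟩
    · exact Or.inr (cb_cent (fun a ha => h.DA x hx a ha))
  have key : ∀ x ∈ B ⊔ D,
      (∀ E : Subgroup G, ((∃ b ∈ B, E = conjBy A b) ∨ E = C) →
        ((∃ b ∈ B, conjBy E x = conjBy A b) ∨ conjBy E x = C)) ∧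
      (∀ E : Subgroup G, ((∃ b ∈ B, E = conjBy A b) ∨ E = C) →
        ((∃ b ∈ B, conjBy E x⁻¹ = conjBy A b) ∨ conjBy E x⁻¹ = C)) := by
    apply sup_ind
    · refine ⟨fun E hE => ?_, fun E hE => ?_⟩
      · rw [cb_one]; exact hE
      · rw [inv_one, cb_one]; exact hE
    · intro x hx
      exact ⟨hBstep x hx, hBstep x⁻¹ (B.inv_mem hx)⟩
    · intro x hx
      exact ⟨hDstep x hx, hDstep x⁻¹ (D.inv_mem hx)⟩
    · rintro x y ⟨hx1, hx2⟩ ⟨hy1, hy2⟩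
      refine ⟨fun E hE => ?_, fun E hE => ?_⟩
      · rw [← cb_cb]; exact hx1 _ (hy1 E hE)
      · rw [mul_inv_rev, ← cb_cb]; exact hy2 _ (hx2 E hE)
    · rintro x ⟨hx1, hx2⟩
      refine ⟨hx2, fun E hE => ?_⟩
      rw [inv_inv]; exact hx1 E hE
  intro x hx
  exact (key x hx).1

theorem C_in_orbit (h : Cfg A B C D) (hr : IsRankOnePair B D) : ∃ x ∈ B ⊔ D, C = conjBy A x := by
  obtain ⟨d, hd, hd1⟩ := ex_ne_one h.neD
  obtain ⟨b, hb, he⟩ := conjC_eq h hr hd hd1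
  refine ⟨d⁻¹ * b, Subgroup.mul_mem _ (Subgroup.mem_sup_right (D.inv_mem hd))
    (Subgroup.mem_sup_left hb), ?_⟩
  rw [← cb_cb, ← he, cb_cb]; simp [cb_one]

theorem A_in_orbit (h : Cfg A B C D) (hr : IsRankOnePair B D) : ∃ x ∈ B ⊔ D, A = conjBy C x := by
  obtain ⟨b, hb, hb1⟩ := ex_ne_one h.neB
  obtain ⟨d, hd, he⟩ := conjA_eq h hr hb hb1
  refine ⟨b⁻¹ * d, Subgroup.mul_mem _ (Subgroup.mem_sup_left (B.inv_mem hb))
    (Subgroup.mem_sup_right hd), ?_⟩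
  rw [← cb_cb, ← he, cb_cb]; simp [cb_one]

theorem orbit_iff (h : Cfg A B C D) (hr : IsRankOnePair B D) (E : Subgroup G) :
    (∃ x ∈ B ⊔ D, E = conjBy A x) ↔ ((∃ b ∈ B, E = conjBy A b) ∨ E = C) := by
  constructor
  · rintro ⟨x, hx, rfl⟩
    have := pm_inv h hr x hx A (Or.inl ⟨1, B.one_mem, (cb_one A).symm⟩)
    exact this
  · rintro (⟨b, hb, rfl⟩ | rfl)
    · exact ⟨b, Subgroup.mem_sup_left hb, rfl⟩
    · exact C_in_orbit h hr

theorem orbit_iff' (h : Cfg A B C D) (hr : IsRankOnePair B D) (E : Subgroup G) :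
    (∃ x ∈ B ⊔ D, E = conjBy C x) ↔ ((∃ d ∈ D, E = conjBy C d) ∨ E = A) := by
  constructor
  · rintro ⟨x, hx, rfl⟩
    rw [← pm_iff h hr]
    exact pm_inv h hr x hx C (Or.inr rfl)
  · rintro (⟨d, hd, rfl⟩ | rfl)
    · exact ⟨d, Subgroup.mem_sup_right hd, rfl⟩
    · exact A_in_orbit h hr

theorem dec_AC (h : Cfg A B C D) : ∀ x ∈ A ⊔ C, ∃ a ∈ A, ∃ c ∈ C, x = a * c := by
  apply sup_ind
  · exact ⟨1, A.one_mem, 1, C.one_mem, by simp⟩
  · intro x hx; exact ⟨x, hx, 1, C.one_mem, by simp⟩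
  · intro x hx; exact ⟨1, A.one_mem, x, hx, by simp⟩
  · rintro x y ⟨a, ha, c, hc, rfl⟩ ⟨a', ha', c', hc', rfl⟩
    refine ⟨a * a', A.mul_mem ha ha', c * c', C.mul_mem hc hc', ?_⟩
    have e : a * c * (a' * c') = a * (c * a') * c' := by group
    rw [e, ← h.AC a' ha' c hc]; group
  · rintro x ⟨a, ha, c, hc, rfl⟩
    refine ⟨a⁻¹, A.inv_mem ha, c⁻¹, C.inv_mem hc, ?_⟩
    rw [mul_inv_rev]
    exact (h.AC a⁻¹ (A.inv_mem ha) c⁻¹ (C.inv_mem hc)).symm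

theorem cbA_le (h : Cfg A B C D) {b : G} (hb : b ∈ B) : conjBy A b ≤ A ⊔ C := by
  intro x hx
  rw [mem_cb] at hx
  have e : x = ((b⁻¹ * x * b) * b * (b⁻¹ * x * b)⁻¹ * b⁻¹)⁻¹ * (b⁻¹ * x * b) := by group
  rw [e]
  exact Subgroup.mul_mem _
    (Subgroup.mem_sup_right (C.inv_mem (h.comAB _ hx b hb)))
    (Subgroup.mem_sup_left hx)

theorem cbA_C (h : Cfg A B C D) {b x : G} (hb : b ∈ B) (hx : x ∈ conjBy A b) (hxC : x ∈ C) :
    x = 1 := by
  rw [mem_cb] at hx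
  have e : b⁻¹ * x * b = x := by rw [mul_assoc, ← h.BC b hb x hxC]; group
  rw [e] at hx
  exact inter_AC h hx hxC

theorem cbA_cbA (h : Cfg A B C D) (hr : IsRankOnePair B D) {b b' x : G} (hb : b ∈ B)
    (hb' : b' ∈ B) (hx : x ∈ conjBy A b) (hx' : x ∈ conjBy A b') (hx1 : x ≠ 1) : b = b' := by
  by_contra hne
  rw [mem_cb] at hx hx'
  have hb0 : b'⁻¹ * b ∈ B := B.mul_mem (B.inv_mem hb') hb
  have hb01 : b'⁻¹ * b ≠ 1 := by
    intro h0
    exact hne (inv_mul_eq_one.1 h0).symm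
  have hmem : (b'⁻¹ * b) * (b⁻¹ * x * b) * (b'⁻¹ * b)⁻¹ ∈ A := by
    have e : (b'⁻¹ * b) * (b⁻¹ * x * b) * (b'⁻¹ * b)⁻¹ = b'⁻¹ * x * b' := by group
    rw [e]; exact hx'
  have hzA : (b'⁻¹ * b) * (b⁻¹ * x * b) * (b'⁻¹ * b)⁻¹ * (b⁻¹ * x * b)⁻¹ ∈ A :=
    A.mul_mem hmem (A.inv_mem hx)
  have hzC : (b'⁻¹ * b) * (b⁻¹ * x * b) * (b'⁻¹ * b)⁻¹ * (b⁻¹ * x * b)⁻¹ ∈ C := by
    have e : (b'⁻¹ * b) * (b⁻¹ * x * b) * (b'⁻¹ * b)⁻¹ * (b⁻¹ * x * b)⁻¹
        = ((b⁻¹ * x * b) * (b'⁻¹ * b) * (b⁻¹ * x * b)⁻¹ * (b'⁻¹ * b)⁻¹)⁻¹ := by group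
    rw [e]; exact C.inv_mem (h.comAB _ hx _ hb0)
  have hz := inter_AC h hzA hzC
  have hcomm : (b⁻¹ * x * b) * (b'⁻¹ * b) = (b'⁻¹ * b) * (b⁻¹ * x * b) := by
    have e : (b'⁻¹ * b) * (b⁻¹ * x * b)
        = ((b'⁻¹ * b) * (b⁻¹ * x * b) * (b'⁻¹ * b)⁻¹ * (b⁻¹ * x * b)⁻¹)
          * ((b⁻¹ * x * b) * (b'⁻¹ * b)) := by group
    rw [e, hz, one_mul]
  have ha1 := inj_b h hr hb0 hb01 hx hcomm
  apply hx1
  have e : x = b * (b⁻¹ * x * b) * b⁻¹ := by group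
  rw [e, ha1]; group

theorem partition (h : Cfg A B C D) (hr : IsRankOnePair B D) :
    IsSubgroupPartition (A ⊔ C) {E | ∃ x ∈ B ⊔ D, E = conjBy A x} := by
  refine ⟨?_, ?_, ?_⟩
  · intro E hE
    rcases (orbit_iff h hr E).1 hE with ⟨b, hb, rfl⟩ | rfl
    · exact cbA_le h hb
    · exact le_sup_right
  · intro x hx hx1
    obtain ⟨a, ha, c, hc, rfl⟩ := dec_AC h x hx
    by_cases ha1 : a = 1
    · subst ha1
      refine ⟨C, C_in_orbit h hr, ?_⟩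
      simpa using hc
    · obtain ⟨b, hb, hcb⟩ := surjB h ha ha1 c hc
      refine ⟨conjBy A b⁻¹, ⟨b⁻¹, Subgroup.mem_sup_left (B.inv_mem hb), rfl⟩, ?_⟩
      rw [mem_cb]
      have hbc := h.BC b hb c hc
      have hac := h.AC a ha c hc
      have e : (b⁻¹)⁻¹ * (a * c) * b⁻¹ = a := by
        calc (b⁻¹)⁻¹ * (a * c) * b⁻¹ = b * (c * a) * b⁻¹ := by rw [inv_inv, hac]
          _ = (b * c) * a * b⁻¹ := by group
          _ = (c * b) * a * b⁻¹ := by rw [hbc]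
          _ = c * (a * b * a⁻¹ * b⁻¹)⁻¹ * a := by group
          _ = c * c⁻¹ * a := by rw [hcb]
          _ = a := by group
      rw [e]; exact ha
  · intro E₁ hE₁ E₂ hE₂ hne
    replace hE₁ := (orbit_iff h hr E₁).1 hE₁
    replace hE₂ := (orbit_iff h hr E₂).1 hE₂
    rw [Subgroup.eq_bot_iff_forall]
    intro x hx
    have hx₁ : x ∈ E₁ := (Subgroup.mem_inf.1 hx).1
    have hx₂ : x ∈ E₂ := (Subgroup.mem_inf.1 hx).2
    rcases hE₁ with ⟨b, hb, rfl⟩ | rfl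
    · rcases hE₂ with ⟨b', hb', rfl⟩ | rfl
      · by_contra hx1
        have := cbA_cbA h hr hb hb' hx₁ hx₂ hx1
        subst this
        exact hne rfl
      · exact cbA_C h hb hx₁ hx₂
    · rcases hE₂ with ⟨b', hb', rfl⟩ | rfl
      · exact cbA_C h hb' hx₂ hx₁
      · exact absurd rfl hne

theorem cent_central (h : Cfg A B C D) (hr : IsRankOnePair B D) :
    ∀ x ∈ (B ⊔ D) ⊓ Subgroup.centralizer ((A ⊔ C : Subgroup G) : Set G),
      ∀ y ∈ B ⊔ D, x * y = y * x := by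
  intro x hx
  have hxX : x ∈ B ⊔ D := (Subgroup.mem_inf.1 hx).1
  have hxc := (Subgroup.mem_inf.1 hx).2
  rw [Subgroup.mem_centralizer_iff] at hxc
  have hxA : ∀ a ∈ A, x * a = a * x := fun a ha =>
    (hxc a (Subgroup.mem_sup_left ha)).symm
  have hxC : ∀ c ∈ C, x * c = c * x := fun c hc =>
    (hxc c (Subgroup.mem_sup_right hc)).symm
  -- x normalizes B
  have hnB : conjBy B x = B := by
    rcases orbit_form hr x hxX with h1 | ⟨b, hb, h1⟩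
    · exact h1
    · exfalso
      have hD : conjBy B (b⁻¹ * x) = D := by
        rw [← cb_cb, h1, cb_cb]; simp [cb_one]
      obtain ⟨d, hd, hd1⟩ := ex_ne_one h.neD
      apply h.neA
      rw [← h.genC d hd hd1, Subgroup.closure_eq_bot_iff]
      rintro y ⟨c, hc, rfl⟩
      show d * c * d⁻¹ * c⁻¹ = 1
      have hdm : d ∈ conjBy B (b⁻¹ * x) := by rw [hD]; exact hd
      rw [mem_cb] at hdm
      have kb : Commute c b⁻¹ := (h.BC b⁻¹ (B.inv_mem hb) c hc).symm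
      have kx : Commute c x := (hxC c hc).symm
      have kg : Commute c (b⁻¹ * x) := kb.mul_right kx
      have k1 : Commute c ((b⁻¹ * x)⁻¹ * d * (b⁻¹ * x)) := (h.BC _ hdm c hc).symm
      have k2 : Commute c ((b⁻¹ * x) * ((b⁻¹ * x)⁻¹ * d * (b⁻¹ * x)) * (b⁻¹ * x)⁻¹) :=
        (kg.mul_right k1).mul_right kg.inv_right
      have e : (b⁻¹ * x) * ((b⁻¹ * x)⁻¹ * d * (b⁻¹ * x)) * (b⁻¹ * x)⁻¹ = d := by group
      rw [e] at k2
      rw [← k2.eq]; group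
  have hnD : conjBy D x = D := by
    have hxX' : x ∈ D ⊔ B := by rw [sup_comm]; exact hxX
    rcases orbit_form (RankOnePair_symm hr) x hxX' with h1 | ⟨d, hd, h1⟩
    · exact h1
    · exfalso
      have hB : conjBy D (d⁻¹ * x) = B := by
        rw [← cb_cb, h1, cb_cb]; simp [cb_one]
      obtain ⟨b, hb, hb1⟩ := ex_ne_one h.neB
      apply h.neC
      rw [← h.genA b hb hb1, Subgroup.closure_eq_bot_iff]
      rintro y ⟨a, ha, rfl⟩
      show a * b * a⁻¹ * b⁻¹ = 1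
      have hbm : b ∈ conjBy D (d⁻¹ * x) := by rw [hB]; exact hb
      rw [mem_cb] at hbm
      have kd : Commute a d⁻¹ := (h.DA d⁻¹ (D.inv_mem hd) a ha).symm
      have kx : Commute a x := (hxA a ha).symm
      have kg : Commute a (d⁻¹ * x) := kd.mul_right kx
      have k1 : Commute a ((d⁻¹ * x)⁻¹ * b * (d⁻¹ * x)) := (h.DA _ hbm a ha).symm
      have k2 : Commute a ((d⁻¹ * x) * ((d⁻¹ * x)⁻¹ * b * (d⁻¹ * x)) * (d⁻¹ * x)⁻¹) :=
        (kg.mul_right k1).mul_right kg.inv_right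
      have e : (d⁻¹ * x) * ((d⁻¹ * x)⁻¹ * b * (d⁻¹ * x)) * (d⁻¹ * x)⁻¹ = b := by group
      rw [e] at k2
      rw [k2.eq]; group
  have hxB : ∀ b ∈ B, x * b = b * x := by
    intro b hb
    have hm : x * b * x⁻¹ ∈ B := by
      have h1 : x * b * x⁻¹ ∈ conjBy B x := by
        rw [mem_cb]
        have e : x⁻¹ * (x * b * x⁻¹) * x = b := by group
        rw [e]; exact hb
      rw [hnB] at h1; exact h1
    have hb2 : x * b * x⁻¹ * b⁻¹ ∈ B := B.mul_mem hm (B.inv_mem hb)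
    have hb21 : x * b * x⁻¹ * b⁻¹ = 1 := by
      by_contra hne1
      obtain ⟨a, ha, ha1⟩ := ex_ne_one h.neA
      apply ha1
      apply inj_b h hr hb2 hne1 ha
      -- a commutes with b₂
      have hc'' : a⁻¹ * b⁻¹ * a * b ∈ C := by
        have := h.comAB a⁻¹ (A.inv_mem ha) b⁻¹ (B.inv_mem hb)
        simpa using this
      have kn : Commute x (b⁻¹ * a * b) := by
        have e : b⁻¹ * a * b = a * (a⁻¹ * b⁻¹ * a * b) := by group
        rw [e]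
        exact (show Commute x a from hxA a ha).mul_right (hxC _ hc'')
      have e1 : x⁻¹ * (b⁻¹ * a * b) * x = b⁻¹ * a * b := by
        rw [mul_assoc, ← kn.eq]; group
      have hconj : (x * b * x⁻¹ * b⁻¹) * a * (x * b * x⁻¹ * b⁻¹)⁻¹ = a := by
        calc (x * b * x⁻¹ * b⁻¹) * a * (x * b * x⁻¹ * b⁻¹)⁻¹
            = x * b * (x⁻¹ * (b⁻¹ * a * b) * x) * b⁻¹ * x⁻¹ := by group
          _ = x * b * (b⁻¹ * a * b) * b⁻¹ * x⁻¹ := by rw [e1]
          _ = x * a * x⁻¹ := by group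
          _ = a := by rw [hxA a ha]; group
      have e : (x * b * x⁻¹ * b⁻¹) * a
          = ((x * b * x⁻¹ * b⁻¹) * a * (x * b * x⁻¹ * b⁻¹)⁻¹) * (x * b * x⁻¹ * b⁻¹) := by group
      rw [e, hconj]
    have e : x * b = (x * b * x⁻¹ * b⁻¹) * (b * x) := by group
    rw [e, hb21, one_mul]
  have hxD : ∀ d ∈ D, x * d = d * x := by
    intro d hd
    have hm : x * d * x⁻¹ ∈ D := by
      have h1 : x * d * x⁻¹ ∈ conjBy D x := by
        rw [mem_cb]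
        have e : x⁻¹ * (x * d * x⁻¹) * x = d := by group
        rw [e]; exact hd
      rw [hnD] at h1; exact h1
    have hd2 : x * d * x⁻¹ * d⁻¹ ∈ D := D.mul_mem hm (D.inv_mem hd)
    have hd21 : x * d * x⁻¹ * d⁻¹ = 1 := by
      by_contra hne1
      apply h.neA
      rw [← h.genC _ hd2 hne1, Subgroup.closure_eq_bot_iff]
      rintro y ⟨c, hc, rfl⟩
      show (x * d * x⁻¹ * d⁻¹) * c * (x * d * x⁻¹ * d⁻¹)⁻¹ * c⁻¹ = 1
      have ha'' : d⁻¹ * c * d * c⁻¹ ∈ A := by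
        have := h.comDC d⁻¹ (D.inv_mem hd) c hc
        simpa using this
      have kn : Commute x (d⁻¹ * c * d) := by
        have e : d⁻¹ * c * d = (d⁻¹ * c * d * c⁻¹) * c := by group
        rw [e]
        exact (show Commute x (d⁻¹ * c * d * c⁻¹) from hxA _ ha'').mul_right (hxC c hc)
      have e1 : x⁻¹ * (d⁻¹ * c * d) * x = d⁻¹ * c * d := by
        rw [mul_assoc, ← kn.eq]; group
      have hconj : (x * d * x⁻¹ * d⁻¹) * c * (x * d * x⁻¹ * d⁻¹)⁻¹ = c := by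
        calc (x * d * x⁻¹ * d⁻¹) * c * (x * d * x⁻¹ * d⁻¹)⁻¹
            = x * d * (x⁻¹ * (d⁻¹ * c * d) * x) * d⁻¹ * x⁻¹ := by group
          _ = x * d * (d⁻¹ * c * d) * d⁻¹ * x⁻¹ := by rw [e1]
          _ = x * c * x⁻¹ := by group
          _ = c := by rw [hxC c hc]; group
      rw [hconj]; group
    have e : x * d = (x * d * x⁻¹ * d⁻¹) * (d * x) := by group
    rw [e, hd21, one_mul]
  apply sup_ind
  · simp
  · exact hxB
  · exact hxD
  · intro y z hy hz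
    exact ((show Commute x y from hy).mul_right hz).eq
  · intro y hy
    exact (Commute.inv_right (show Commute x y from hy)).eq

end Cfsg.Agent.Lib.Helper8.RootPair
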