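import Mathlib
import Cfsg.Agent.Lib.Helper8.U34

set_option autoImplicit false

namespace Cfsg.Agent.Lib.Helper8.U34

open Matrix Cfsg.Agent.Lib.Helper2.Unitary

section model2

variable {F : Type*} [Field F] [Fintype F] [hF16 : Fact (Fintype.card F = 16)]

/-- the embedding of the model into `SU₃(4)` -/
noncomputable def Phi : Hs F →* ↥(Cfsg.SU 3 F 4) where
  toFun p := ⟨⟨um p.a p.s, um_det hF16.out p.a p.s⟩,
    (mem_SU_iff 3 4 _).2 (um_isU hF16.out p.a p.s p.h)⟩
  map_one' := by
    apply Subtype.ext
    apply Subtype.ext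
    show um (0 : F) 0 = 1
    ext i j
    fin_cases i <;> fin_cases j <;> simp [um]
  map_mul' p q := by
    apply Subtype.ext
    apply Subtype.ext
    exact (um_mul hF16.out p.a p.s q.a q.s).symm

theorem Phi_injective : Function.Injective (Phi : Hs F →* ↥(Cfsg.SU 3 F 4)) := by
  intro p q h
  have h1 : um p.a p.s = um q.a q.s :=
    congrArg (fun g : ↥(Cfsg.SU 3 F 4) => (g.1.1 : Matrix (Fin 3) (Fin 3) F)) h
  have ha := congrFun (congrFun h1 0) 2
  have hs := congrFun (congrFun h1 0) 1
  simp [um] at ha hs
  exact Hs.ext ha hs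

theorem center_iff (p : Hs F) : p ∈ Subgroup.center (Hs F) ↔ p.a = 0 := by
  have h2 := two_eq_zero hF16.out
  constructor
  · intro hp
    rw [Subgroup.mem_center_iff] at hp
    obtain ⟨ω, hω⟩ := exists_nonfixed hF16.out
    obtain ⟨s₁, hs₁⟩ := exists_s hF16.out (1 : F)
    obtain ⟨sω, hsω⟩ := exists_s hF16.out ω
    have e1 := congrArg Hs.s (hp ⟨1, s₁, hs₁⟩)
    have e2 := congrArg Hs.s (hp ⟨ω, sω, hsω⟩)
    simp only [mul_s] at e1 e2
    have h4 : p.a ^ 4 = p.a := by linear_combination e1
    have h5 : p.a * (ω + ω ^ 4) = 0 := by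
      linear_combination (-1 : F) * e2 + ω * h4 + (p.a * ω) * h2
    rcases mul_eq_zero.1 h5 with h | h
    · exact h
    · exact absurd h hω
  · intro hp
    rw [Subgroup.mem_center_iff]
    intro q
    ext
    · simp only [mul_a]
      ring
    · simp only [mul_s, hp]
      ring

theorem card_center : Nat.card (Subgroup.center (Hs F)) = 4 := by
  refine Eq.trans ?_ (card_ker hF16.out)
  refine Nat.card_congr
    { toFun := fun p => ⟨p.1.s, by
        have := p.1.h
        rw [(center_iff p.1).1 p.2] at this
        simpa using this⟩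
      invFun := fun s => ⟨⟨0, s.1, by rw [s.2]; simp⟩, (center_iff _).2 rfl⟩
      left_inv := fun p => by
        apply Subtype.ext
        apply Hs.ext
        · exact ((center_iff p.1).1 p.2).symm
        · rfl
      right_inv := fun s => rfl }

theorem card_Hs : Nat.card (Hs F) = 64 := by
  let f : Hs F →* Multiplicative F :=
    { toFun := fun p => Multiplicative.ofAdd p.a
      map_one' := rfl
      map_mul' := fun p q => rfl }
  have hker : f.ker = Subgroup.center (Hs F) := by
    ext p
    rw [MonoidHom.mem_ker, center_iff]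
    exact Iff.rfl
  have hsurj : Function.Surjective f := by
    intro a
    obtain ⟨s, hs⟩ := exists_s hF16.out (Multiplicative.toAdd a)
    exact ⟨⟨_, s, hs⟩, rfl⟩
  have h1 := f.ker.card_mul_index
  have h3 : Nat.card (Multiplicative F) = 16 := by
    rw [Nat.card_congr Multiplicative.toAdd, Nat.card_eq_fintype_card, hF16.out]
  rw [Subgroup.index_ker, hker, card_center, MonoidHom.range_eq_top.2 hsurj, Subgroup.card_top,
    h3] at h1
  omega

theorem center_sq (c : Hs F) (hc : c ∈ Subgroup.center (Hs F)) : c * c = 1 := by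
  have h2 := two_eq_zero hF16.out
  have ha := (center_iff c).1 hc
  ext
  · simp only [mul_a, one_a, ha, add_zero]
  · simp only [mul_s, one_s, ha]
    linear_combination c.s * h2

theorem invol_central (x : Hs F) (hx : x * x = 1) : x ∈ Subgroup.center (Hs F) := by
  have h2 := two_eq_zero hF16.out
  rw [center_iff]
  have h1 := congrArg Hs.s hx
  simp only [mul_s, one_s] at h1
  have h5 : x.a ^ 5 = 0 := by linear_combination h1 - x.s * h2
  exact (pow_eq_zero_iff (by norm_num)).1 h5

theorem comm_central (g h : Hs F) : g * h * g⁻¹ * h⁻¹ ∈ Subgroup.center (Hs F) := by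
  have h2 := two_eq_zero hF16.out
  rw [center_iff]
  simp only [mul_a, inv_a]
  linear_combination (g.a + h.a) * h2

theorem sq_central (g : Hs F) : g * g ∈ Subgroup.center (Hs F) := by
  have h2 := two_eq_zero hF16.out
  rw [center_iff]
  simp only [mul_a]
  linear_combination g.a * h2

theorem central_comm (c : Hs F) (hc : c ∈ Subgroup.center (Hs F)) :
    ∃ g h : Hs F, c = g * h * g⁻¹ * h⁻¹ := by
  have h2 := two_eq_zero hF16.out
  have ha := (center_iff c).1 hc
  have hcs : c.s + c.s ^ 4 = 0 := by
    have := c.h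
    rw [ha] at this
    simpa using this
  obtain ⟨a, hac⟩ := exists_tr hF16.out c.s hcs
  obtain ⟨sa, hsa⟩ := exists_s hF16.out a
  obtain ⟨s₁, hs₁⟩ := exists_s hF16.out (1 : F)
  refine ⟨⟨a, sa, hsa⟩, ⟨1, s₁, hs₁⟩, ?_⟩
  ext
  · simp only [mul_a, inv_a]
    rw [ha]
    linear_combination -(a + 1) * h2
  · simp only [mul_s, mul_a, inv_a, inv_s]
    linear_combination (-1 : F) * hac - (sa + s₁ + a ^ 5 + a + 1) * h2

end model2

/-- transport of the structure along an isomorphism -/
theorem transport {G H : Type*} [Group G] [Group H] (e : G ≃* H)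
    (h1 : Nat.card H = 64) (h2 : Nat.card (Subgroup.center H) = 4)
    (h3 : ∀ c ∈ Subgroup.center H, c * c = 1)
    (h4 : ∀ x : H, x * x = 1 → x ∈ Subgroup.center H)
    (h5 : ∀ g h : H, g * h * g⁻¹ * h⁻¹ ∈ Subgroup.center H)
    (h6 : ∀ c ∈ Subgroup.center H, ∃ g h : H, c = g * h * g⁻¹ * h⁻¹)
    (h7 : ∀ g : H, g * g ∈ Subgroup.center H) :
    Nat.card G = 64 ∧ IsKleinFour (Subgroup.center G) ∧
      Subgroup.center G = Subgroup.closure {x : G | orderOf x = 2} ∧
      Subgroup.center G = commutator G ∧
      Nat.card (G ⧸ Subgroup.center G) = 16 ∧ ∀ x : G ⧸ Subgroup.center G, x ^ 2 = 1 := by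
  have hcen : ∀ g : G, g ∈ Subgroup.center G ↔ e g ∈ Subgroup.center H := by
    intro g
    rw [Subgroup.mem_center_iff, Subgroup.mem_center_iff]
    constructor
    · intro h k
      obtain ⟨k', rfl⟩ := e.surjective k
      rw [← map_mul, ← map_mul, h k']
    · intro h k
      apply e.injective
      rw [map_mul, map_mul, h (e k)]
  have g1 : Nat.card G = 64 := by rw [Nat.card_congr e.toEquiv, h1]
  have g2 : Nat.card (Subgroup.center G) = 4 := by
    rw [← h2]
    exact Nat.card_congr (e.toEquiv.subtypeEquiv (fun g => hcen g))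
  have g3 : ∀ c ∈ Subgroup.center G, c * c = 1 := by
    intro c hc
    apply e.injective
    rw [map_mul, map_one]
    exact h3 _ ((hcen c).1 hc)
  have g4 : ∀ x : G, x * x = 1 → x ∈ Subgroup.center G := by
    intro x hx
    rw [hcen]
    apply h4
    rw [← map_mul, hx, map_one]
  have g5 : ∀ g h : G, g * h * g⁻¹ * h⁻¹ ∈ Subgroup.center G := by
    intro g h
    rw [hcen]
    simp only [map_mul, map_inv]
    exact h5 _ _
  have g6 : ∀ c ∈ Subgroup.center G, ∃ g h : G, c = g * h * g⁻¹ * h⁻¹ := by
    intro c hc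
    obtain ⟨g, h, hgh⟩ := h6 _ ((hcen c).1 hc)
    refine ⟨e.symm g, e.symm h, e.injective ?_⟩
    simp only [map_mul, map_inv, MulEquiv.apply_symm_apply]
    exact hgh
  have g7 : ∀ g : G, g * g ∈ Subgroup.center G := by
    intro g
    rw [hcen, map_mul]
    exact h7 _
  refine ⟨g1, ⟨g2, ?_⟩, ?_, ?_, ?_, ?_⟩
  · have hdvd : Monoid.exponent (Subgroup.center G) ∣ 2 := by
      apply Monoid.exponent_dvd_of_forall_pow_eq_one
      intro c
      apply Subtype.ext
      rw [pow_two]
      exact g3 c.1 c.2
    rcases (Nat.dvd_prime Nat.prime_two).1 hdvd with h | h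
    · exfalso
      rw [Monoid.exp_eq_one_iff] at h
      have := Nat.card_unique (α := Subgroup.center G)
      omega
    · exact h
  · apply le_antisymm
    · intro c hc
      by_cases h1' : c = 1
      · rw [h1']
        exact Subgroup.one_mem _
      · apply Subgroup.subset_closure
        show orderOf c = 2
        exact orderOf_eq_prime (by rw [pow_two]; exact g3 c hc) h1'
    · rw [Subgroup.closure_le]
      intro x hx
      have hx' : orderOf x = 2 := hx
      apply g4
      rw [← pow_two, ← hx']
      exact pow_orderOf_eq_one x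
  · apply le_antisymm
    · intro c hc
      obtain ⟨g, h, rfl⟩ := g6 c hc
      rw [commutator_def]
      exact Subgroup.commutator_mem_commutator (Subgroup.mem_top g) (Subgroup.mem_top h)
    · rw [commutator_def, Subgroup.commutator_le]
      intro g _ h _
      exact g5 g h
  · have := Subgroup.card_eq_card_quotient_mul_card_subgroup (Subgroup.center G)
    rw [g1, g2] at this
    omega
  · intro x
    induction x using QuotientGroup.induction_on with
    | H g =>
      rw [← QuotientGroup.mk_pow, QuotientGroup.eq_one_iff, pow_two]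
      exact g7 g

end Cfsg.Agent.Lib.Helper8.U34
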